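import Cfsg.Agent.Lib.Fischer.DoubleM22.Plane
import Cfsg.Agent.Lib.Fischer.ThompsonOrbit.WeaklyClosed
import Cfsg.Agent.Lib.Fischer.TypeTwentyTwoWidth
import Cfsg.Agent.Lib.Fischer.InvolutionClassesMTwentyTwo
import Cfsg.Agent.Lib.Fischer2.UnitarySixModel

/-!
A set of twenty-two commuting members: it generates the largest elementary abelian subgroup of each
Sylow 2-subgroup containing it, which is its own centralizer among the 2-elements.
-/

set_option autoImplicit false
set_option linter.unusedSectionVars false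
set_option maxRecDepth 100000

namespace CfsgLib.Fischer.DoubleM22

open CfsgLib.Fischer CfsgLib.InvChar.FischerProducts CfsgLib.InvChar.FischerHexad
open CfsgLib.InvChar.UnitaryTVTwo CfsgLib.Fischer.TypeTwentyTwo CfsgLib.SchurMult.PSUSixTwo
open CfsgLib.Fischer.ThompsonOrbit

theorem isElementaryAbelian_closure {G : Type*} [Group G] {S : Set G} (h2 : ∀ x ∈ S, x * x = 1)
    (hc : ∀ x ∈ S, ∀ y ∈ S, Commute x y) : Cfsg.IsElementaryAbelian 2 (Subgroup.closure S) := by
  have hcom : ∀ a ∈ Subgroup.closure S, ∀ b ∈ Subgroup.closure S, Commute a b := by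
    intro a ha b hb
    induction ha, hb using Subgroup.closure_induction₂ with
    | mem a b ha hb => exact hc a ha b hb
    | one_left => exact Commute.one_left _
    | one_right => exact Commute.one_right _
    | mul_left _ _ _ _ _ _ h1 h2 => exact h1.mul_left h2
    | mul_right _ _ _ _ _ _ h1 h2 => exact h1.mul_right h2
    | inv_left _ _ _ _ h1 => exact h1.inv_left
    | inv_right _ _ _ _ h1 => exact h1.inv_right
  refine ⟨⟨⟨fun a b => Subtype.ext (hcom a a.2 b b.2)⟩⟩, fun a ha => ?_⟩
  induction ha using Subgroup.closure_induction with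
  | mem x hx => rw [pow_two, h2 x hx]
  | one => exact one_pow 2
  | mul x y hx hy ihx ihy => rw [(hcom x hx y hy).mul_pow, ihx, ihy, one_mul]
  | inv x _ ih => rw [inv_pow, ih, inv_one]

theorem card_closure_insert_le {G : Type*} [Group G] [Finite G] {a : G} {S : Set G} (h2 : a * a = 1)
    (hc : ∀ x ∈ S, Commute a x) :
    Nat.card (Subgroup.closure (insert a S)) ≤ 2 * Nat.card (Subgroup.closure S) := by
  have hn : Subgroup.zpowers a ≤ Subgroup.normalizer (Subgroup.closure S : Set G) := by
    rw [Subgroup.zpowers_le]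
    have hac : ∀ x ∈ Subgroup.closure S, Commute a x := fun x hx => by
      induction hx using Subgroup.closure_induction with
      | mem y hy => exact hc y hy
      | one => exact Commute.one_right a
      | mul y z _ _ h1 h2 => exact h1.mul_right h2
      | inv y _ h => exact h.inv_right
    refine mem_normalizer_of_forall fun x hx => ?_
    rw [(hac x hx).eq, mul_inv_cancel_right]; exact hx
  have h := CfsgLib.NormalPComplement.card_sup_mul_card_inf hn
  rw [show insert a S = {a} ∪ S from Set.insert_eq a S, Subgroup.closure_union, ← Subgroup.zpowers_eq_closure]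
  have ha : Nat.card (Subgroup.zpowers a) ≤ 2 := by
    rw [Nat.card_zpowers]; exact Nat.le_of_dvd (by norm_num) (orderOf_dvd_of_pow_eq_one (by rw [pow_two, h2]))
  have hpos : 0 < Nat.card (Subgroup.zpowers a ⊓ Subgroup.closure S : Subgroup G) := Nat.card_pos
  nlinarith

theorem card_le_of_le {G : Type*} [Group G] [Finite G] {H K : Subgroup G} (h : H ≤ K) :
    Nat.card H ≤ Nat.card K :=
  Nat.le_of_dvd Nat.card_pos (Subgroup.card_dvd_of_le h)

theorem pivot_same : ∀ p < 21, same [pt p] (((reduce.getD p ([], [])).1).map pt) = true := by decide +kernel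

theorem plane_codes : pt 5 = [1, 1, 0, 0, 0, 0] ∧ pt 1 = [0, 0, 1, 1, 0, 0] ∧ pt 0 = [0, 0, 0, 0, 1, 1] := by
  decide

variable {G : Type*} [Group G] [Finite G] {D : Set G}

/-- The hypothesis on the Thompson subgroups. -/
def ThompsonGenerated (D : Set G) : Prop :=
  ∀ T : Sylow 2 G, Subgroup.closure {x : G | x ∈ D ∧ x ∈ (T : Subgroup G)} =
    Cfsg.thompsonSubgroupOf 2 (T : Subgroup G)

/-- Twenty-two commuting members with their group. -/
structure Base (D : Set G) where
  B : Finset G
  sub : ∀ b ∈ B, b ∈ D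
  comm : ∀ a ∈ B, ∀ b ∈ B, Commute a b
  card : B.card = 22
  order : Nat.card (Subgroup.closure (B : Set G)) = 1024
  self : ∀ x : G, ∀ k : ℕ, x ^ 2 ^ k = 1 → (∀ b ∈ B, Commute x b) → x ∈ Subgroup.closure (B : Set G)
  unique : UniqueInTwoGroups (Subgroup.closure (B : Set G))
  max : ∀ E : Subgroup G, Cfsg.IsElementaryAbelian 2 E → 1024 ≤ Nat.card E →
    ∃ g : G, E = (Subgroup.closure (B : Set G)).map (MulAut.conj g).toMonoidHom
  members : ∀ x ∈ D, x ∈ Subgroup.closure (B : Set G) → x ∈ B

variable (hD : Cfsg.IsThreeTranspositionGroup D) (hprim : Cfsg.IsPrimitiveUnderConj D)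
  (ht : Cfsg.IsOfTypeM22 G D) (hcent : ∀ e ∈ D, Subgroup.centralizer ({e} : Set G) = Subgroup.closure (perp D e))
  (hJ : ThompsonGenerated D)

include hD hprim ht

theorem commute_of_mem_two_group {T : Subgroup G} (hT : IsPGroup 2 T) {x y : G} (hx : x ∈ D) (hy : y ∈ D)
    (hxT : x ∈ T) (hyT : y ∈ T) : Commute x y := by
  rcases hD.1.2 x hx y hy with h | h
  · rw [pow_two, mul_eq_one_iff_eq_inv, _root_.mul_inv_rev, inv_eq hD.1 hx, inv_eq hD.1 hy] at h
    exact h
  · obtain ⟨k, hk⟩ := hT ⟨x * y, mul_mem hxT hyT⟩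
    have hk' : (x * y) ^ 2 ^ k = 1 := congrArg Subtype.val hk
    have h1 : orderOf (x * y) ∣ 1 := by
      have := Nat.dvd_gcd (orderOf_dvd_of_pow_eq_one h) (orderOf_dvd_of_pow_eq_one hk')
      rwa [(Nat.Coprime.pow_right k (by norm_num : Nat.Coprime 3 2)).gcd_eq_one] at this
    rw [Nat.dvd_one, orderOf_eq_one_iff, mul_eq_one_iff_eq_inv, inv_eq hD.1 hy] at h1
    rw [h1]

include hcent hJ

theorem exists_base : Nonempty (Base D) := by
  classical
  have hG := good_of_primitive hD hprim ht.1
  obtain ⟨e, he, -⟩ := id hprim.2.1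
  obtain ⟨F, iF, iF', ⟨P⟩⟩ := exists_plane hD hprim ht he
  set q := P.q
  have heH : e ∈ Subgroup.closure (perp D e) := mem_closure_perp hD hprim ht he
  let B : Finset G := insert e ((Finset.range 21).image fun p => (P.x p : G))
  have hBmem : ∀ b ∈ B, b = e ∨ ∃ p < 21, (P.x p : G) = b := fun b hb => by
    simpa [B, eq_comm] using hb
  have hxB : ∀ p < 21, (P.x p : G) ∈ B := fun p hp =>
    Finset.mem_insert_of_mem (Finset.mem_image.2 ⟨p, Finset.mem_range.2 hp, rfl⟩)
  have heB : e ∈ B := Finset.mem_insert_self _ _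
  have hsub : ∀ b ∈ B, b ∈ D := fun b hb => by
    rcases hBmem b hb with rfl | ⟨p, hp, rfl⟩
    exacts [he, (P.mem p hp).1]
  have hcomm : ∀ a ∈ B, ∀ b ∈ B, Commute a b := fun a ha b hb => by
    rcases hBmem a ha with rfl | ⟨p, hp, rfl⟩ <;> rcases hBmem b hb with rfl | ⟨r, hr, rfl⟩
    exacts [Commute.refl _, (P.mem r hr).2.2, (P.mem p hp).2.2.symm, P.comm p hp r hr]
  have hcard : B.card = 22 := by
    rw [Finset.card_insert_of_notMem, Finset.card_image_of_injOn, Finset.card_range]
    · exact fun p hp r hr h => P.inj p (Finset.mem_range.1 hp) r (Finset.mem_range.1 hr) h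
    · intro h
      obtain ⟨p, hp, hpe⟩ := Finset.mem_image.1 h
      exact (P.mem p (Finset.mem_range.1 hp)).2.1 hpe
  set J := Subgroup.closure (B : Set G) with hJdef
  have hJel : Cfsg.IsElementaryAbelian 2 J :=
    isElementaryAbelian_closure (fun x hx => sq_eq_one hD.1 (hsub x hx)) fun x hx y hy => hcomm x hx y hy
  have hJp : IsPGroup 2 J := fun x => ⟨1, Subtype.ext (by rw [pow_one]; exact hJel.2 x x.2)⟩
  have hJH : J ≤ Subgroup.closure (perp D e) := (Subgroup.closure_le _).2 fun b hb => by
    rcases hBmem b hb with rfl | ⟨p, hp, rfl⟩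
    exacts [heH, (P.x p).2]
  let eH : Subgroup.closure (perp D e) := ⟨e, heH⟩
  have hker : ∀ z : Subgroup.closure (perp D e), quotMap P.eq z = 1 → z = 1 ∨ z = eH := fun z hz => by
    rcases center_le hD hprim ht he z.2 (fun f hf =>
      (congrArg Subtype.val (Subgroup.mem_center_iff.1 ((quotMap_eq_one P.eq).1 hz)
        ⟨f, Subgroup.subset_closure hf⟩)).symm) with h | h
    exacts [Or.inl (Subtype.ext h), Or.inr (Subtype.ext h)]
  have he1 : quotMap P.eq eH = 1 := (quotMap_eq_one P.eq).2 (Subgroup.mem_center_iff.2 fun g =>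
    Subtype.ext (commute_d (H := Subgroup.closure (perp D e)) rfl g.2).symm.eq)
  -- the order
  have hle : Nat.card J ≤ 1024 := by
    let S : Finset G := insert e (pivots.toFinset.image fun p => (P.x p : G))
    have hSB : ∀ s ∈ S, s ∈ B := fun s hs => by
      rcases Finset.mem_insert.1 hs with rfl | h
      · exact heB
      · obtain ⟨p, hp, rfl⟩ := Finset.mem_image.1 h
        exact hxB p (pivot_facts.2.2.1 p (List.mem_toFinset.1 hp))
    have hJS : J ≤ Subgroup.closure (S : Set G) := by
      have heS : e ∈ Subgroup.closure (S : Set G) := Subgroup.subset_closure (Finset.mem_insert_self _ _)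
      rw [hJdef, Subgroup.closure_le]
      intro b hb
      rcases hBmem b hb with rfl | ⟨p, hp, rfl⟩
      · exact heS
      · set l := (reduce.getD p ([], [])).1 with hl
        have hl21 : ∀ r ∈ l, r < 21 := fun r hr => pivot_facts.2.2.1 r ((reduce_facts p hp).1 r hr)
        have hlmem : (((l.map P.x).prod : Subgroup.closure (perp D e)) : G) ∈ Subgroup.closure (S : Set G) := by
          rw [← Subgroup.coe_subtype, map_list_prod, List.map_map]
          refine Subgroup.list_prod_mem _ fun z hz => ?_
          obtain ⟨r, hr, rfl⟩ := List.mem_map.1 hz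
          exact Subgroup.subset_closure (Finset.mem_insert_of_mem (Finset.mem_image.2
            ⟨r, List.mem_toFinset.2 ((reduce_facts p hp).1 r hr), rfl⟩))
        have heq : quotMap P.eq (P.x p * ((l.map P.x).prod)⁻¹) = 1 := by
          rw [map_mul, map_inv, P.img p hp, map_list_prod, List.map_map,
            show List.map (⇑(quotMap P.eq) ∘ P.x) l = l.map (fun r => q.pel [pt r]) from
              List.map_congr_left fun r hr => P.img r (hl21 r hr),
            ← q.pel_map_pt, q.same_eq (pivot_same p hp), mul_inv_cancel]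
        rcases hker _ heq with h | h
        · rw [mul_inv_eq_one.1 h]; exact hlmem
        · rw [mul_inv_eq_iff_eq_mul.1 h]; exact mul_mem heS hlmem
    have hcl : ∀ (T : Finset G), (∀ s ∈ T, s ∈ B) → Nat.card (Subgroup.closure (T : Set G)) ≤ 2 ^ T.card := by
      intro T
      induction T using Finset.induction_on with
      | empty => intro _; simp
      | @insert a T' haT ih =>
        intro hT
        rw [Finset.coe_insert, Finset.card_insert_of_notMem haT, pow_succ']
        refine (card_closure_insert_le (sq_eq_one hD.1 (hsub a (hT a (Finset.mem_insert_self _ _))))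
          fun x hx => hcomm a (hT a (Finset.mem_insert_self _ _)) x (hT x (Finset.mem_insert_of_mem hx))).trans ?_
        exact Nat.mul_le_mul_left 2 (ih fun s hs => hT s (Finset.mem_insert_of_mem hs))
    refine (card_le_of_le hJS).trans ((hcl S hSB).trans ?_)
    refine (Nat.pow_le_pow_right (by norm_num) ((Finset.card_insert_le _ _).trans (Nat.add_le_add_right
      (Finset.card_image_le.trans (List.toFinset_card_le _)) 1))).trans ?_
    rw [pivot_facts.1]
  have hge : 1024 ≤ Nat.card J := by
    let J' := J.subgroupOf (Subgroup.closure (perp D e))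
    let f : J' →* Cfsg.PSU 6 F 2 := (quotMap P.eq).comp J'.subtype
    have hV : q.V ≤ f.range := by
      rw [Coord.V, Subgroup.closure_le]
      rintro _ ⟨p, hp, rfl⟩
      exact ⟨⟨P.x p, Subgroup.subset_closure (hxB p hp)⟩, P.img p hp⟩
    have h1 : 512 ≤ Nat.card f.range := le_trans q.card_V_ge (card_le_of_le hV)
    have heJ : eH ∈ J' := Subgroup.subset_closure heB
    have h2 : 2 ≤ Nat.card f.ker := by
      refine Finite.one_lt_card_iff_nontrivial.2 ⟨⟨⟨⟨eH, heJ⟩, he1⟩, 1, fun h => ne_one hD.1 he ?_⟩⟩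
      exact congrArg (fun z : f.ker => (((z : J') : Subgroup.closure (perp D e)) : G)) h
    have h3 := Subgroup.card_eq_card_quotient_mul_card_subgroup f.ker
    rw [Nat.card_congr (QuotientGroup.quotientKerEquivRange f).toEquiv] at h3
    have h4 : Nat.card J' = Nat.card J := Nat.card_congr (Subgroup.subgroupOfEquivOfLe hJH).toEquiv
    nlinarith
  have horder : Nat.card J = 1024 := le_antisymm hle hge
  -- largest elementary abelian subgroups
  have hmaxT : ∀ (T : Sylow 2 G), J ≤ T → Cfsg.thompsonSubgroupOf 2 (T : Subgroup G) = J ∧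
      ∀ x ∈ D, x ∈ (T : Subgroup G) → x ∈ B := by
    intro T hJT
    have hmem : ∀ x ∈ D, x ∈ (T : Subgroup G) → x ∈ B := by
      intro x hx hxT
      by_contra hxB
      have hE : ((insert x B : Finset G) : Set G) ⊆ D := by
        intro y hy
        rcases Finset.mem_insert.1 hy with rfl | hy
        exacts [hx, hsub y hy]
      have hinT : ∀ y ∈ insert x B, y ∈ (T : Subgroup G) := fun y hy => by
        rcases Finset.mem_insert.1 hy with rfl | hy
        exacts [hxT, hJT (Subgroup.subset_closure hy)]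
      have h := le_commutingWidth (D := D) hE (fun a ha b hb =>
        commute_of_mem_two_group hD hprim ht T.isPGroup' (hE ha) (hE hb) (hinT a ha) (hinT b hb))
      rw [Set.ncard_coe_finset, Finset.card_insert_of_notMem hxB, hcard, commutingWidth_eq hD hprim ht] at h
      omega
    refine ⟨?_, hmem⟩
    rw [← hJ T, hJdef]
    refine le_antisymm (Subgroup.closure_mono fun x hx => hmem x hx.1 hx.2)
      (Subgroup.closure_mono fun b hb => ⟨hsub b hb, hJT (Subgroup.subset_closure hb)⟩)
  obtain ⟨T₀, hT₀⟩ := hJp.exists_le_sylow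
  have hall : ∀ T : Sylow 2 G, ∃ g : G, Cfsg.thompsonSubgroupOf 2 (T : Subgroup G) =
      J.map (MulAut.conj g).toMonoidHom := by
    intro T
    obtain ⟨g, hg⟩ := MulAction.exists_smul_eq G T₀ T
    refine ⟨g, ?_⟩
    have hset : {x : G | x ∈ D ∧ x ∈ (T : Subgroup G)} =
        (MulAut.conj g).toMonoidHom '' {x : G | x ∈ D ∧ x ∈ (T₀ : Subgroup G)} := by
      ext y
      rw [← hg]
      constructor
      · rintro ⟨hyD, hyT⟩
        obtain ⟨x, hx, rfl⟩ := hyT
        refine ⟨x, ⟨?_, hx⟩, rfl⟩
        have := hD.2.1 g⁻¹ _ hyD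
        simpa [mul_assoc] using this
      · rintro ⟨x, ⟨hxD, hxT⟩, rfl⟩
        exact ⟨hD.2.1 g x hxD, x, hxT, rfl⟩
    rw [← hJ T, hset, ← MonoidHom.map_closure, hJ T₀, (hmaxT T₀ hT₀).1]
  have hbound : ∀ (T : Sylow 2 G) (E : Subgroup G), Cfsg.IsElementaryAbelian 2 E → E ≤ T →
      Nat.card E ≤ 1024 ∧ (1024 ≤ Nat.card E → E = Cfsg.thompsonSubgroupOf 2 (T : Subgroup G)) := by
    intro T E hE hET
    obtain ⟨g, hg⟩ := hall T
    have hJcard : Nat.card ↥(Cfsg.thompsonSubgroupOf 2 (T : Subgroup G)) = 1024 := by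
      rw [hg, Subgroup.card_map_of_injective (MulAut.conj g).injective, horder]
    have hE' : Cfsg.IsElementaryAbelian 2 (E.subgroupOf (T : Subgroup G)) := by
      refine ⟨⟨⟨fun a b => Subtype.ext (Subtype.ext ?_)⟩⟩, fun a ha => Subtype.ext (hE.2 (a : G) ha)⟩
      show ((a : (T : Subgroup G)) : G) * ((b : (T : Subgroup G)) : G) = ((b : (T : Subgroup G)) : G) * ((a : (T : Subgroup G)) : G)
      exact congrArg Subtype.val (hE.1.1.comm (⟨_, a.2⟩ : E) (⟨_, b.2⟩ : E))
    haveI : Nonempty {A : Subgroup (T : Subgroup G) // Cfsg.IsElementaryAbelian 2 A} := ⟨⟨_, hE'⟩⟩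
    obtain ⟨⟨M, hM⟩, hMmax⟩ := Finite.exists_max
      (fun A : {A : Subgroup (T : Subgroup G) // Cfsg.IsElementaryAbelian 2 A} => Nat.card A.1)
    have hMmem : M ∈ Cfsg.maxElementaryAbelianSubgroups 2 (T : Subgroup G) := ⟨hM, fun A hA => hMmax ⟨A, hA⟩⟩
    have hMJ : ∀ A ∈ Cfsg.maxElementaryAbelianSubgroups 2 (T : Subgroup G),
        A.map (T : Subgroup G).subtype ≤ Cfsg.thompsonSubgroupOf 2 (T : Subgroup G) := fun A hA =>
      Subgroup.map_mono (le_sSup hA)
    have hEc : Nat.card (E.subgroupOf (T : Subgroup G)) = Nat.card E :=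
      Nat.card_congr (Subgroup.subgroupOfEquivOfLe hET).toEquiv
    have h1 : Nat.card M ≤ 1024 := by
      rw [← hJcard, ← Nat.card_congr (M.equivMapOfInjective _ (T : Subgroup G).subtype_injective).toEquiv.symm]
      exact card_le_of_le (hMJ M hMmem)
    have h2 : Nat.card E ≤ 1024 := by
      rw [← hEc]; exact (hMmem.2 _ hE').trans h1
    refine ⟨h2, fun h3 => Subgroup.eq_of_le_of_card_ge ?_ (by rw [hJcard]; exact h3)⟩
    have hmem : E.subgroupOf (T : Subgroup G) ∈ Cfsg.maxElementaryAbelianSubgroups 2 (T : Subgroup G) :=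
      ⟨hE', fun A hA => (hMmem.2 A hA).trans (h1.trans (hEc ▸ h3))⟩
    have := hMJ _ hmem
    rwa [Subgroup.map_subgroupOf_eq_of_le hET] at this
  have hconjE : ∀ g : G, Cfsg.IsElementaryAbelian 2 (J.map (MulAut.conj g).toMonoidHom) := by
    intro g
    rw [hJdef, MonoidHom.map_closure]
    refine isElementaryAbelian_closure ?_ ?_
    · rintro _ ⟨x, hx, rfl⟩; rw [← map_mul, sq_eq_one hD.1 (hsub x hx), map_one]
    · rintro _ ⟨x, hx, rfl⟩ _ ⟨y, hy, rfl⟩; exact (hcomm x hx y hy).map _
  refine ⟨{
    B := B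
    sub := hsub
    comm := hcomm
    card := hcard
    order := horder
    self := ?_
    unique := ?_
    max := ?_
    members := fun x hx hxJ => (hmaxT T₀ hT₀).2 x hx (hT₀ hxJ) }⟩
  · intro x k hk hx
    have hxH : x ∈ Subgroup.closure (perp D e) := by
      rw [← hcent e he, Subgroup.mem_centralizer_singleton_iff]
      exact (hx e heB).eq
    let xh : Subgroup.closure (perp D e) := ⟨x, hxH⟩
    obtain ⟨g, hg⟩ := QuotientGroup.mk_surjective (quotMap P.eq xh)
    have hfix : ∀ p < 21, act (g ^ 3) (q.vec (pt p)) = q.vec (pt p) := by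
      intro p hp
      have hiso := q.iso_herm (point_facts p hp).1
      have hpel : q.pel [pt p] = pv q.card (q.vec (pt p)) hiso := by
        simp only [Coord.pel, Coord.el, List.map_cons, List.map_nil, List.prod_cons, List.prod_nil, mul_one,
          Coord.tvS]
        rw [dif_pos hiso]; rfl
      have h0 : q.vec (pt p) ≠ 0 := by
        intro h
        refine (point_code p hp).2.2 (q.vec_injective (point_code p hp).1 (point_code p hp).2.1 ?_)
        rw [h]; funext i; fin_cases i <;> rfl
      have hgx : Cfsg.hermForm 6 F 2 (act g (q.vec (pt p))) (act g (q.vec (pt p))) = 0 := by rw [act_herm]; exact hiso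
      have hcomm' : pv q.card (act g (q.vec (pt p))) hgx = pv q.card (q.vec (pt p)) hiso := by
        have h1 : quotMap P.eq xh * q.pel [pt p] * (quotMap P.eq xh)⁻¹ = q.pel [pt p] := by
          rw [← P.img p hp, ← map_mul, ← map_inv, ← map_mul]
          refine congrArg _ (Subtype.ext ?_)
          show x * (P.x p : G) * x⁻¹ = P.x p
          rw [(hx _ (hxB p hp)).eq, mul_inv_cancel_right]
        rwa [hpel, ← hg, pv, ← QuotientGroup.mk_mul, ← QuotientGroup.mk_inv, ← QuotientGroup.mk_mul,
          conj_tv q.card g hiso] at h1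
      obtain ⟨c, hc⟩ := pv_eq_span q.card (by norm_num) hgx hiso
        (fun h => h0 (by rw [← act_one (q.vec (pt p)), ← inv_mul_cancel g, act_mul, h,
          ← zero_smul F (0 : Fin 6 → F), act_smul, zero_smul]; simp)) hcomm'
      have hc0 : c ≠ 0 := fun hc0 => h0 (by
        rw [← act_one (q.vec (pt p)), ← inv_mul_cancel g, act_mul, hc, hc0, act_smul, zero_smul])
      rw [CfsgLib.Fischer.TypeTwentyTwo.act_pow g hc 3,
        CfsgLib.Fischer.UnitaryPoint.pow_three q.card hc0, one_smul]
    have hsq : act (g ^ 3 * g ^ 3) = id := by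
      funext y
      set h := g ^ 3 with hh
      obtain ⟨u, hu⟩ : ∃ u, u = act h y + y := ⟨_, rfl⟩
      have hperp : ∀ p < 21, Cfsg.hermForm 6 F 2 u (q.vec (pt p)) = 0 := fun p hp => by
        rw [hu, (conj q.card).add_left]
        conv_lhs => arg 1; rw [← hfix p hp, act_herm]
        exact add_self q.card _
      have hval : ∀ i : Fin 6, u i + u (if (i : ℕ) % 2 = 0 then i + 1 else i - 1) = 0 := by
        have h5 := hperp 5 (by norm_num)
        have h1 := hperp 1 (by norm_num)
        have h0 := hperp 0 (by norm_num)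
        rw [plane_codes.1] at h5
        rw [plane_codes.2.1] at h1
        rw [plane_codes.2.2] at h0
        simp [Cfsg.hermForm, Coord.vec, Coord.val, Fin.sum_univ_six] at h5 h1 h0
        intro i
        fin_cases i <;> simp [h5, h1, h0, add_comm (u 1), add_comm (u 3), add_comm (u 5)]
      have heq : ∀ a b : Fin 6, u a + u b = 0 → u b = u a := fun a b hab =>
        ((eq_neg_of_add_eq_zero_right hab).trans (eq_neg_of_add_eq_zero_left (add_self q.card (u a))).symm)
      have hspan : u = u 0 • q.vec (pt 5) + (u 2 • q.vec (pt 1) + u 4 • q.vec (pt 0)) := by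
        have e1 := heq 0 1 (hval 0)
        have e3 := heq 2 3 (hval 2)
        have e5 := heq 4 5 (hval 4)
        rw [plane_codes.1, plane_codes.2.1, plane_codes.2.2]
        funext i
        fin_cases i <;> simp [Coord.vec, Coord.val, e1, e3, e5]
      have hfu : act h u = u := by
        conv_lhs => rw [hspan]
        rw [act_add, act_add, act_smul, act_smul, act_smul, hfix 5 (by norm_num), hfix 1 (by norm_num),
          hfix 0 (by norm_num), ← hspan]
      have hy : act h y = u + y := by
        rw [hu, add_assoc, vadd_self q.card, add_zero]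
      show act (h * h) y = y
      rw [act_mul, hy, act_add, hfu, hy, ← add_assoc, vadd_self q.card, zero_add]
    have hx6 : quotMap P.eq (xh ^ 3) * quotMap P.eq (xh ^ 3) = 1 := by
      rw [map_pow, ← hg, ← QuotientGroup.mk_pow, ← QuotientGroup.mk_mul,
        show g ^ 3 * g ^ 3 = 1 from act_ext fun y => by rw [congrFun hsq y, act_one]; rfl, QuotientGroup.mk_one]
    have hsq3 := CfsgLib.Fischer2.UnitarySix.sq_eq_one_of_involution q.card (quotMap P.eq)
      (fun p => by
        obtain ⟨z, hz⟩ := (P.eq.surjective.comp (QuotientGroup.mk'_surjective _)) p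
        exact ⟨z, hz⟩)
      (d := eH) hker
      (fun z => Subtype.ext (commute_d (H := Subgroup.closure (perp D e)) rfl z.2).eq)
      (Subtype.ext (sq_eq_one hD.1 he)) hx6
    have hx2 : x * x = 1 := by
      have h6 : x ^ 6 = 1 := by
        have := congrArg Subtype.val hsq3
        rw [show (6 : ℕ) = 3 + 3 from rfl, pow_add]
        exact this
      have hd : orderOf x ∣ 2 := by
        have h2 := Nat.dvd_gcd (orderOf_dvd_of_pow_eq_one h6) (orderOf_dvd_of_pow_eq_one hk)
        have h3 : Nat.gcd 6 (2 ^ k) ∣ 2 := by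
          rw [show (6 : ℕ) = 2 * 3 from rfl, Nat.Coprime.gcd_mul_right_cancel 2
            (Nat.Coprime.pow_right k (by norm_num : Nat.Coprime 3 2))]
          exact Nat.gcd_dvd_left _ _
        exact h2.trans h3
      rw [← pow_two]; exact orderOf_dvd_iff_pow_eq_one.1 hd
    have hEel : Cfsg.IsElementaryAbelian 2 (Subgroup.closure (insert x (B : Set G))) := by
      refine isElementaryAbelian_closure ?_ ?_
      · rintro y (rfl | hy)
        exacts [hx2, sq_eq_one hD.1 (hsub y hy)]
      · rintro y (rfl | hy) z (rfl | hz)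
        exacts [Commute.refl _, hx z hz, (hx y hy).symm, hcomm y hy z hz]
    have hEp : IsPGroup 2 (Subgroup.closure (insert x (B : Set G))) :=
      fun y => ⟨1, Subtype.ext (by rw [pow_one]; exact hEel.2 y y.2)⟩
    obtain ⟨T, hT⟩ := hEp.exists_le_sylow
    have hJE : J ≤ Subgroup.closure (insert x (B : Set G)) := Subgroup.closure_mono (Set.subset_insert _ _)
    have hE2 := (hbound T _ hEel hT).1
    show x ∈ J
    rw [Subgroup.eq_of_le_of_card_ge hJE (by rw [horder]; exact hE2)]
    exact Subgroup.subset_closure (Set.mem_insert _ _)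
  · intro T g h hg hh
    have hc : ∀ z : G, Nat.card (J.map (MulAut.conj z).toMonoidHom) = 1024 := fun z =>
      (Subgroup.card_map_of_injective (MulAut.conj z).injective).trans horder
    rw [(hbound T _ (hconjE g) hg).2 (hc g).ge, (hbound T _ (hconjE h) hh).2 (hc h).ge]
  · intro E hE hEcard
    have hEp : IsPGroup 2 E := fun y => ⟨1, Subtype.ext (by rw [pow_one]; exact hE.2 y y.2)⟩
    obtain ⟨T, hT⟩ := hEp.exists_le_sylow
    obtain ⟨g, hg⟩ := hall T
    exact ⟨g, ((hbound T E hE hT).2 hEcard).trans hg⟩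

end CfsgLib.Fischer.DoubleM22
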