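import Cfsg.Agent.Lib.Fischer.DoubleM22.Strata

/-!
The preimage of the base group in a perfect double cover: an elementary abelian group of order
`2^11` whose non-central elements fall into five kinds, each inside one conjugacy class.
-/

set_option autoImplicit false
set_option linter.unusedSectionVars false

namespace CfsgLib.Fischer.DoubleM22

open CfsgLib.Fischer CfsgLib.InvChar.FischerProducts CfsgLib.InvChar.FischerHexad
open CfsgLib.InvChar.UnitaryTVTwo CfsgLib.Fischer.TypeTwentyTwo CfsgLib.Fischer.ThompsonOrbit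
open CfsgLib.Fischer.InvolutionLists

variable {C G : Type*} [Group C] [Finite C] [Group G] [Finite G] {π : C →* G} {d : C} {D : Set G}

/-- The preimage of the base group. -/
abbrev Base.P (Bs : Base D) (π : C →* G) : Subgroup C := Bs.J.comap π

variable (hπ : IsDouble π d) (hD : Cfsg.IsThreeTranspositionGroup D) (hprim : Cfsg.IsPrimitiveUnderConj D)
  (ht : Cfsg.IsOfTypeM22 G D) (hcent : ∀ e ∈ D, Subgroup.centralizer ({e} : Set G) = Subgroup.closure (perp D e))
  (Bs : Base D)

include hπ hD hprim ht hcent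

theorem natCard_P : Nat.card (Bs.P π) = 2 ^ 11 := by
  rw [hπ.natCard_comap, show Nat.card Bs.J = 1024 from Bs.order]; norm_num

theorem isElementary_P : Cfsg.IsElementaryAbelian 2 (Bs.P π) := by
  have hJ := Base.isElementary hD hprim ht hcent Bs
  have hs : ∀ x ∈ Bs.P π, π x * π x = 1 := fun x hx => by rw [← pow_two]; exact hJ.2 _ hx
  refine ⟨⟨⟨fun a b => Subtype.ext ?_⟩⟩, fun a ha => by
    rw [pow_two]; exact sq_lift hπ hD hprim ht hcent (hs a ha)⟩
  exact (commute_lift hπ hD hprim ht hcent (hs a a.2) (hs b b.2)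
    (congrArg Subtype.val (hJ.1.1.comm ⟨π a, a.2⟩ ⟨π b, b.2⟩))).eq

theorem max_P {E : Subgroup C} (hE : Cfsg.IsElementaryAbelian 2 E) (hcard : 2 ^ 11 ≤ Nat.card E) :
    ∃ c : C, E = (Bs.P π).map (MulAut.conj c).toMonoidHom := by
  let Eb := E.map π
  have hEb : Cfsg.IsElementaryAbelian 2 Eb := by
    refine ⟨⟨⟨fun a b => Subtype.ext ?_⟩⟩, ?_⟩
    · obtain ⟨u, hu, hua⟩ := a.2
      obtain ⟨v, hv, hvb⟩ := b.2
      show (a : G) * b = b * a
      rw [← hua, ← hvb, ← map_mul, ← map_mul]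
      exact congrArg π (congrArg Subtype.val (hE.1.1.comm ⟨u, hu⟩ ⟨v, hv⟩))
    · rintro _ ⟨u, hu, rfl⟩
      rw [← map_pow, hE.2 u hu, map_one]
  have h2 : Nat.card E ≤ 2 * Nat.card Eb := by
    rw [← hπ.natCard_comap]
    exact Nat.le_of_dvd Nat.card_pos (Subgroup.card_dvd_of_le (Subgroup.le_comap_map π E))
  have h1024 : 1024 ≤ Nat.card Eb := by norm_num at hcard; omega
  obtain ⟨g, hg⟩ := Bs.max Eb hEb h1024
  have hgc : Nat.card Eb = 1024 := by
    rw [hg, Subgroup.card_map_of_injective (MulAut.conj g).injective]; exact Bs.order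
  obtain ⟨c, rfl⟩ := hπ.surj g
  refine ⟨c, ?_⟩
  have hEq : E = Eb.comap π := Subgroup.eq_of_le_of_card_ge (Subgroup.le_comap_map π E)
    (by rw [hπ.natCard_comap, hgc]; exact hcard)
  rw [hEq, hg]
  ext y
  simp only [Subgroup.mem_comap, Subgroup.mem_map_equiv]
  rw [MulAut.conj_symm_apply, MulAut.conj_symm_apply, map_mul, map_mul, map_inv]

theorem thompson_P (S : Sylow 2 C) :
    ∃ c : C, Cfsg.thompsonSubgroupOf 2 (S : Subgroup C) = (Bs.P π).map (MulAut.conj c).toMonoidHom := by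
  have hP := isElementary_P hπ hD hprim ht hcent Bs
  have hc := natCard_P hπ hD hprim ht hcent Bs
  obtain ⟨T, hT⟩ := (IsPGroup.of_card hc : IsPGroup 2 (Bs.P π)).exists_le_sylow
  obtain ⟨c, hcS⟩ := MulAction.exists_smul_eq C T S
  refine ⟨c, ?_⟩
  set A := (Bs.P π).map (MulAut.conj c).toMonoidHom with hA
  have hAS : A ≤ (S : Subgroup C) := by
    rintro _ ⟨y, hy, rfl⟩
    rw [← hcS]
    exact Subgroup.smul_mem_pointwise_smul _ _ _ (hT hy)
  have hAc : Nat.card A = 2 ^ 11 := (Subgroup.card_map_of_injective (MulAut.conj c).injective).trans hc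
  have hAel : Cfsg.IsElementaryAbelian 2 A := by
    refine ⟨⟨⟨fun a b => Subtype.ext ?_⟩⟩, ?_⟩
    · obtain ⟨u, hu, hua⟩ := a.2
      obtain ⟨v, hv, hvb⟩ := b.2
      show (a : C) * b = b * a
      rw [← hua, ← hvb, ← map_mul, ← map_mul]
      exact congrArg _ (congrArg Subtype.val (hP.1.1.comm ⟨u, hu⟩ ⟨v, hv⟩))
    · rintro _ ⟨u, hu, rfl⟩
      rw [← map_pow, hP.2 u hu, map_one]
  have hA' : Cfsg.IsElementaryAbelian 2 (A.subgroupOf (S : Subgroup C)) := by
    refine ⟨⟨⟨fun a b => Subtype.ext (Subtype.ext ?_)⟩⟩, fun a ha => Subtype.ext (hAel.2 (a : C) ha)⟩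
    show ((a : (S : Subgroup C)) : C) * ((b : (S : Subgroup C)) : C) = ((b : (S : Subgroup C)) : C) * ((a : (S : Subgroup C)) : C)
    exact congrArg Subtype.val (hAel.1.1.comm (⟨_, a.2⟩ : A) (⟨_, b.2⟩ : A))
  have hAc' : Nat.card (A.subgroupOf (S : Subgroup C)) = 2 ^ 11 :=
    (Nat.card_congr (Subgroup.subgroupOfEquivOfLe hAS).toEquiv).trans hAc
  -- every large elementary subgroup in the Sylow subgroup is this one
  have huniq : ∀ M : Subgroup (S : Subgroup C), Cfsg.IsElementaryAbelian 2 M → 2 ^ 11 ≤ Nat.card M →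
      M = A.subgroupOf (S : Subgroup C) := by
    intro M hM hMc
    have hM' : Cfsg.IsElementaryAbelian 2 (M.map (S : Subgroup C).subtype) := by
      refine ⟨⟨⟨fun a b => Subtype.ext ?_⟩⟩, ?_⟩
      · obtain ⟨u, hu, hua⟩ := a.2
        obtain ⟨v, hv, hvb⟩ := b.2
        show (a : C) * b = b * a
        rw [← hua, ← hvb, ← map_mul, ← map_mul]
        exact congrArg _ (congrArg Subtype.val (hM.1.1.comm ⟨u, hu⟩ ⟨v, hv⟩))
      · rintro _ ⟨u, hu, rfl⟩
        rw [← map_pow, hM.2 u hu, map_one]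
    obtain ⟨c', hc'⟩ := max_P hπ hD hprim ht hcent Bs hM'
      (hMc.trans_eq (Nat.card_congr (M.equivMapOfInjective _ (S : Subgroup C).subtype_injective).toEquiv))
    obtain ⟨T', hT'⟩ := (S.isPGroup'.map π).exists_le_sylow
    have hlift : ∀ z : C, (Bs.P π).map (MulAut.conj z).toMonoidHom = (Bs.J.map (MulAut.conj (π z)).toMonoidHom).comap π := by
      intro z
      ext y
      simp only [Subgroup.mem_comap, Subgroup.mem_map_equiv]
      rw [MulAut.conj_symm_apply, MulAut.conj_symm_apply, map_mul, map_mul, map_inv]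
    have hle : ∀ z : C, (Bs.P π).map (MulAut.conj z).toMonoidHom ≤ (S : Subgroup C) →
        Bs.J.map (MulAut.conj (π z)).toMonoidHom ≤ (T' : Subgroup G) := by
      intro z hz y hy
      obtain ⟨y, rfl⟩ := hπ.surj y
      exact hT' ⟨y, hz (by rw [hlift]; exact hy), rfl⟩
    have hMS : M.map (S : Subgroup C).subtype ≤ (S : Subgroup C) := Subgroup.map_subtype_le M
    have heq := Bs.unique T' (π c') (π c) (hle c' (hc' ▸ hMS)) (hle c hAS)
    refine Subgroup.map_injective (S : Subgroup C).subtype_injective ?_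
    rw [hc', Subgroup.map_subgroupOf_eq_of_le hAS, hA, hlift, hlift, heq]
  have hmax : Cfsg.maxElementaryAbelianSubgroups 2 (S : Subgroup C) = {A.subgroupOf (S : Subgroup C)} := by
    ext M
    constructor
    · exact fun hM => huniq M hM.1 (by rw [← hAc']; exact hM.2 _ hA')
    · rintro rfl
      refine ⟨hA', fun B hB => ?_⟩
      by_contra hlt
      push Not at hlt
      exact absurd (huniq B hB (by rw [← hAc']; exact hlt.le)) (fun e => by rw [e] at hlt; exact lt_irrefl _ hlt)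
  rw [Cfsg.thompsonSubgroupOf, Cfsg.thompsonSubgroup, hmax, sSup_singleton, Subgroup.map_subgroupOf_eq_of_le hAS]

theorem natCard_centralizer_P :
    Nat.card (Subgroup.centralizer (Bs.P π : Set C)) = 2 * Nat.card (Subgroup.centralizer (Bs.J : Set G)) := by
  rw [← hπ.natCard_comap]
  refine congrArg (fun H : Subgroup C => Nat.card H) (SetLike.ext fun y => ?_)
  simp only [Subgroup.mem_comap, Subgroup.mem_centralizer_iff]
  constructor
  · intro h x hx
    obtain ⟨x, rfl⟩ := hπ.surj x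
    rw [← map_mul, ← map_mul, h x hx]
  · intro h x hx
    have hcl : Bs.P π ≤ Subgroup.centralizer ({y} : Set C) := by
      intro z hz
      rw [Subgroup.mem_centralizer_singleton_iff]
      obtain ⟨w, hw⟩ : ∃ w, w = π z := ⟨_, rfl⟩
      have hwJ : w ∈ Subgroup.closure (Bs.B : Set G) := hw ▸ hz
      clear hz
      induction hwJ using Subgroup.closure_induction generalizing z with
      | mem b hb =>
        refine ((commute_member hπ hD hprim ht hcent (Bs.sub b hb) hw.symm ?_).symm).eq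
        rw [← hcent b (Bs.sub b hb), Subgroup.mem_centralizer_singleton_iff]
        exact (h b (Subgroup.subset_closure hb)).symm
      | one =>
        rcases (hπ.ker z).1 hw.symm with rfl | rfl
        · rw [one_mul, mul_one]
        · exact (hπ.central y).eq
      | mul u v hu hv ihu ihv =>
        obtain ⟨u', hu'⟩ := hπ.surj u
        obtain ⟨v', hv'⟩ := hπ.surj v
        have h1 := ihu hu'.symm
        have h2 := ihv hv'.symm
        rcases hπ.lift_eq (show π z = π (u' * v') by rw [map_mul, hu', hv', hw]) with rfl | rfl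
        · exact (Commute.mul_left h1 h2).eq
        · exact ((hπ.central y).mul_left (Commute.mul_left h1 h2)).eq
      | inv u _ ihu =>
        have h1 : Commute z⁻¹ y := ihu (by rw [map_inv, ← hw, inv_inv])
        exact (inv_inv z ▸ h1.inv_left).eq
    exact Subgroup.mem_centralizer_singleton_iff.1 (hcl hx)

theorem natCard_normalizer_P :
    Nat.card (Subgroup.normalizer (Bs.P π : Set C)) = 2 * Nat.card (Subgroup.normalizer (Bs.J : Set G)) := by
  rw [← hπ.natCard_comap]
  refine congrArg (fun H : Subgroup C => Nat.card H) (SetLike.ext fun y => ?_)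
  simp only [Subgroup.mem_comap, Subgroup.mem_normalizer_iff]
  constructor
  · intro h x
    obtain ⟨x, rfl⟩ := hπ.surj x
    rw [← map_inv, ← map_mul, ← map_mul]
    exact h x
  · intro h x
    show π x ∈ Bs.J ↔ π (y * x * y⁻¹) ∈ Bs.J
    rw [map_mul, map_mul, map_inv]
    exact h (π x)

variable {t₀ : C} (h0 : π t₀ ∈ D)

include h0

/-- The five kinds of elements of the preimage. -/
theorem exists_classes :
    ∃ E E' X X' T : Set C,
      (∀ x ∈ E ∪ E' ∪ X ∪ X' ∪ T, x ∈ Bs.P π ∧ x ≠ 1 ∧ x ≠ d) ∧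
      (∀ x ∈ Bs.P π, x ≠ 1 → x ≠ d → x ∈ E ∪ E' ∪ X ∪ X' ∪ T) ∧
      E.ncard = 22 ∧ E'.ncard = 22 ∧ X.ncard = 231 ∧ X'.ncard = 231 ∧ T.ncard = 1540 ∧
      List.Pairwise Disjoint [E, E', X, X', T] ∧
      (∀ S ∈ [E, E', X, X', T], ∀ x ∈ S, ∀ y ∈ S, IsConj x y) ∧
      (∀ x ∈ E, d * x ∈ E') ∧ (∀ x ∈ E', d * x ∈ E) ∧ (∀ x ∈ X, d * x ∈ X') ∧ (∀ x ∈ X', d * x ∈ X) ∧
      d ∈ Subgroup.closure E ∧ d ∈ Subgroup.closure E' ∧
      (∃ p ∈ X, ∃ q ∈ X, p ≠ q ∧ p * q ∈ X) ∧ (∃ p ∈ X', ∃ q ∈ X', p ≠ q ∧ p * q ∈ X') := by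
  classical
  have hP := isElementary_P hπ hD hprim ht hcent Bs
  have hlift : ∀ e, ∃ t, e ∈ D → IsConj t₀ t ∧ π t = e := fun e => by
    by_cases he : e ∈ D
    · obtain ⟨t, h⟩ := exists_lift hπ hD hprim ht hcent h0 he
      exact ⟨t, fun _ => h⟩
    · exact ⟨1, fun h => absurd h he⟩
  choose t htt using hlift
  have htB : ∀ a ∈ Bs.B, π (t a) = a := fun a ha => (htt a (Bs.sub a ha)).2
  have htP : ∀ a ∈ Bs.B, t a ∈ Bs.P π := fun a ha => by
    show π (t a) ∈ Bs.J
    rw [htB a ha]; exact Subgroup.subset_closure ha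
  have hcm : ∀ a ∈ Bs.B, ∀ b ∈ Bs.B, Commute (t a) (t b) := fun a ha b hb =>
    congrArg Subtype.val (hP.1.1.comm ⟨t a, htP a ha⟩ ⟨t b, htP b hb⟩)
  have hsq : ∀ x ∈ Bs.P π, x * x = 1 := fun x hx => by rw [← pow_two]; exact hP.2 x hx
  have ht2 : ∀ a ∈ Bs.B, t a * t a = 1 := fun a ha => hsq _ (htP a ha)
  let L : Finset G → C := setProd t
  have hπL : ∀ s ⊆ Bs.B, π (L s) = setProd id s := fun s hs => by
    rw [map_setProd]; exact setProd_congr fun a ha => htB a (hs ha)
  have hLP : ∀ s ⊆ Bs.B, L s ∈ Bs.P π := fun s hs => by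
    show π (L s) ∈ Bs.J
    rw [hπL s hs]; exact Base.setProd_mem hD hprim ht hcent Bs hs
  have hdd : ∀ x, d * (d * x) = x := fun x => by rw [← mul_assoc, hπ.sq, one_mul]
  have hdP : d ∈ Bs.P π := by show π d ∈ Bs.J; rw [hπ.map_d]; exact one_mem _
  have hπd : ∀ x, π (d * x) = π x := fun x => by rw [map_mul, hπ.map_d, one_mul]
  -- conjugacy within a kind
  have hconj : ∀ s s' : Finset G, s ⊆ Bs.B → s' ⊆ Bs.B → s.card = s'.card → s.card ≤ 3 → IsConj (L s) (L s') := by
    intro s s' hs hs' hcard h3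
    obtain ⟨g, hg⟩ := trans_le_three hD hprim ht h3 s.toList s'.toList (Finset.nodup_toList _) (Finset.nodup_toList _)
      (Finset.length_toList _) ((Finset.length_toList _).trans hcard.symm)
      (fun a ha => Bs.sub a (hs (Finset.mem_toList.1 ha))) (fun a ha => Bs.sub a (hs' (Finset.mem_toList.1 ha)))
      (fun a ha b hb => Bs.comm a (hs (Finset.mem_toList.1 ha)) b (hs (Finset.mem_toList.1 hb)))
      (fun a ha b hb => Bs.comm a (hs' (Finset.mem_toList.1 ha)) b (hs' (Finset.mem_toList.1 hb)))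
    obtain ⟨c, rfl⟩ := hπ.surj g
    refine isConj_iff.2 ⟨c, ?_⟩
    show MulAut.conj c (setProd t s) = setProd t s'
    rw [setProd, setProd, map_list_prod, List.map_map, ← hg, List.map_map]
    refine congrArg List.prod (List.map_congr_left fun a ha => ?_)
    have haD : a ∈ D := Bs.sub a (hs (Finset.mem_toList.1 ha))
    have hbD : π c * a * (π c)⁻¹ ∈ D := hD.2.1 (π c) a haD
    show c * t a * c⁻¹ = t (π c * a * (π c)⁻¹)
    refine lift_unique hπ hD hprim ht hcent (by rw [(htt _ hbD).2]; exact hbD)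
      (((htt _ hbD).1.symm.trans (htt a haD).1).trans (isConj_iff.2 ⟨c, rfl⟩)) ?_
    rw [map_mul, map_mul, map_inv, (htt a haD).2, (htt _ hbD).2]
  -- six members of the base with lifts of product `d`
  obtain ⟨six, hsix, hsix6, hsixd⟩ : ∃ s : Finset G, s ⊆ Bs.B ∧ s.card = 6 ∧ L s = d := by
    obtain ⟨l, hlen, hl, hnd, hcomm, -, hprod⟩ := exists_relation hD hprim ht hπ hcent h0
    obtain ⟨T, hT⟩ := (Base.isPGroup hD hprim ht hcent Bs).exists_le_sylow
    have hmem : ∀ x ∈ D, x ∈ (T : Subgroup G) → x ∈ Bs.B := fun x hx hxT =>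
      Bs.members x hx (Bs.self x 1 (by rw [pow_one, pow_two, sq_eq_one hD.1 hx]) fun b hb =>
        commute_of_mem_two_group hD hprim ht T.isPGroup' hx (Bs.sub b hb) hxT (hT (Subgroup.subset_closure hb)))
    let S0 : Set G := {x | x ∈ l.map π}
    have hS0 : ∀ x ∈ S0, x ∈ D ∧ ∃ u ∈ l, π u = x := fun x hx => by
      obtain ⟨u, hu, rfl⟩ := List.mem_map.1 hx
      exact ⟨(hl u hu).2, u, hu, rfl⟩
    have hEl : Cfsg.IsElementaryAbelian 2 (Subgroup.closure S0) :=
      isElementaryAbelian_closure (fun x hx => sq_eq_one hD.1 (hS0 x hx).1) fun x hx y hy => by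
        obtain ⟨u, hu, rfl⟩ := (hS0 x hx).2
        obtain ⟨v, hv, rfl⟩ := (hS0 y hy).2
        exact hcomm u hu v hv
    obtain ⟨T', hT'⟩ := (show IsPGroup 2 (Subgroup.closure S0) from fun x =>
      ⟨1, Subtype.ext (by rw [pow_one]; exact hEl.2 x x.2)⟩).exists_le_sylow
    obtain ⟨g, hg⟩ := MulAction.exists_smul_eq G T' T
    obtain ⟨c, rfl⟩ := hπ.surj g
    have hin : ∀ u ∈ l, π (c * u * c⁻¹) ∈ Bs.B := fun u hu => by
      rw [map_mul, map_mul, map_inv]
      refine hmem _ (hD.2.1 (π c) _ (hl u hu).2) ?_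
      rw [← hg]
      exact Subgroup.smul_mem_pointwise_smul _ _ _ (hT' (Subgroup.subset_closure (List.mem_map.2 ⟨u, hu, rfl⟩)))
    let l' := l.map fun u => π (c * u * c⁻¹)
    have hnd' : l'.Nodup := by
      have e : l' = (l.map π).map (MulAut.conj (π c)) := by
        rw [List.map_map]; exact List.map_congr_left fun u _ => by simp
      rw [e]; exact hnd.map (MulAut.conj (π c)).injective
    have hB' : ∀ a ∈ l', a ∈ Bs.B := fun a ha => by
      obtain ⟨u, hu, rfl⟩ := List.mem_map.1 ha; exact hin u hu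
    refine ⟨l'.toFinset, fun a ha => hB' a (List.mem_toFinset.1 ha), ?_, ?_⟩
    · rw [List.toFinset_card_of_nodup hnd', List.length_map, hlen]
    · show setProd t l'.toFinset = d
      rw [setProd_toFinset hnd' fun a ha b hb => hcm a (hB' a ha) b (hB' b hb), List.map_map]
      have e : l.map (t ∘ fun u => π (c * u * c⁻¹)) = l.map (MulAut.conj c) := by
        refine List.map_congr_left fun u hu => ?_
        have huD : π (c * u * c⁻¹) ∈ D := Bs.sub _ (hin u hu)
        exact lift_unique hπ hD hprim ht hcent huD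
          (((isConj_iff.2 ⟨c, rfl⟩ : IsConj u (c * u * c⁻¹)).symm.trans (hl u hu).1.symm).trans (htt _ huD).1)
          (htt _ huD).2
      rw [e, ← map_list_prod, hprod, MulAut.conj_apply, (hπ.central c).symm.eq, mul_inv_cancel_right]
  let K : ℕ → Set C := fun k => {x | ∃ s ⊆ Bs.B, s.card = k ∧ L s = x}
  let K' : ℕ → Set C := fun k => {x | d * x ∈ K k}
  let X3 : Set G := {x : G | ∃ s ⊆ Bs.B, s.card = 3 ∧ setProd id s = x}
  let T : Set C := {x | π x ∈ X3}
  have hkind : ∀ k ≤ 3, ∀ x, (x ∈ K k ∨ x ∈ K' k) → ∃ s ⊆ Bs.B, s.card = k ∧ π x = setProd id s := by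
    rintro k hk x (⟨s, hs, hsk, rfl⟩ | ⟨s, hs, hsk, hx⟩)
    · exact ⟨s, hs, hsk, hπL s hs⟩
    · exact ⟨s, hs, hsk, by rw [← hπd x, ← hx, hπL s hs]⟩
  have hkindT : ∀ x ∈ T, ∃ s ⊆ Bs.B, s.card = 3 ∧ π x = setProd id s := fun x ⟨s, hs, hsk, he⟩ => ⟨s, hs, hsk, he.symm⟩
  have hnot : ∀ k, 1 ≤ k → k ≤ 3 → ∀ x, (∃ s ⊆ Bs.B, s.card = k ∧ π x = setProd id s) →
      x ∈ Bs.P π ∧ x ≠ 1 ∧ x ≠ d := by
    rintro k hk hk3 x ⟨s, hs, hsk, hx⟩
    have h1 : setProd id s ≠ 1 := Base.setProd_ne_one hD hprim ht hcent Bs hs (Finset.card_pos.1 (by omega)) (by omega)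
    refine ⟨?_, fun e => h1 ?_, fun e => h1 ?_⟩
    · show π x ∈ Bs.J
      rw [hx]; exact Base.setProd_mem hD hprim ht hcent Bs hs
    · rw [← hx, e, map_one]
    · rw [← hx, e, hπ.map_d]
  have hsep : ∀ i ≤ 3, ∀ j ≤ 3, i ≠ j → ∀ x, (∃ s ⊆ Bs.B, s.card = i ∧ π x = setProd id s) →
      (∃ s ⊆ Bs.B, s.card = j ∧ π x = setProd id s) → False := by
    rintro i hi j hj hij x ⟨s, hs, rfl, hx⟩ ⟨s', hs', rfl, hx'⟩
    exact hij (Base.setProd_card hD hprim ht hcent Bs hs hs' hi hj (hx.symm.trans hx'))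
  have hKK' : ∀ k ≤ 2, Disjoint (K k) (K' k) := fun k hk => Set.disjoint_left.2 fun x hx hx' => by
    obtain ⟨s, hs, hsk, rfl⟩ := hx
    obtain ⟨s', hs', hsk', he⟩ := hx'
    have := Base.setProd_inj hD hprim ht hcent Bs hs hs' (by omega) (by rw [← hπL s hs, ← hπL s' hs', he, hπd])
    subst this
    exact hπ.ne (mul_eq_right.1 he.symm)
  have hKcard : ∀ k ≤ 2, (K k).ncard = Nat.choose 22 k := fun k hk => by
    have e : K k = ↑((Bs.B.powersetCard k).image L) := by
      ext x
      simp only [K, Finset.coe_image, Set.mem_image, Finset.mem_coe, Finset.mem_powersetCard, Set.mem_setOf_eq]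
      exact ⟨fun ⟨s, h1, h2, h3⟩ => ⟨s, ⟨h1, h2⟩, h3⟩, fun ⟨s, ⟨h1, h2⟩, h3⟩ => ⟨s, h1, h2, h3⟩⟩
    rw [e, Set.ncard_coe_finset, Finset.card_image_of_injOn, Finset.card_powersetCard, Bs.card]
    intro s hs s' hs' he
    obtain ⟨a1, a2⟩ := Finset.mem_powersetCard.1 hs
    obtain ⟨b1, b2⟩ := Finset.mem_powersetCard.1 hs'
    exact Base.setProd_inj hD hprim ht hcent Bs a1 b1 (by omega) (by rw [← hπL s a1, ← hπL s' b1, he])
  have hK'card : ∀ k ≤ 2, (K' k).ncard = Nat.choose 22 k := fun k hk => by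
    rw [← hKcard k hk]
    exact Set.ncard_congr (fun x _ => d * x) (fun x hx => hx) (fun x y _ _ h => mul_left_cancel h)
      fun y hy => ⟨d * y, by show d * (d * y) ∈ K k; rw [hdd]; exact hy, hdd y⟩
  have hTcard : T.ncard = 1540 := by
    choose σ hσ using hπ.surj
    have e : T = σ '' X3 ∪ (fun y => d * σ y) '' X3 := by
      ext x
      constructor
      · intro hx
        rcases hπ.lift_eq (hσ (π x)).symm with h | h
        · exact Or.inl ⟨π x, hx, h.symm⟩
        · exact Or.inr ⟨π x, hx, h.symm⟩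
      · rintro (⟨y, hy, rfl⟩ | ⟨y, hy, rfl⟩) <;> show π _ ∈ X3
        · rw [hσ]; exact hy
        · rw [hπd, hσ]; exact hy
    have hinj : Function.Injective σ := fun y y' h => by rw [← hσ y, ← hσ y', h]
    rw [e, Set.ncard_union_eq, Set.ncard_image_of_injective _ hinj,
      Set.ncard_image_of_injective X3 (f := fun y => d * σ y) fun y y' h => hinj (mul_left_cancel h),
      Base.ncard_three hD hprim ht hcent Bs]
    refine Set.disjoint_left.2 ?_
    rintro _ ⟨y, hy, rfl⟩ ⟨y', hy', h⟩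
    simp only at h
    have : y' = y := by rw [← hσ y', ← hπd (σ y'), h, hσ]
    subst this
    exact hπ.ne (mul_eq_right.1 h)
  obtain ⟨a₁, a₂, a₃, ha1, ha2, ha3, n12, n13, n23⟩ :
      ∃ a b c, a ∈ Bs.B ∧ b ∈ Bs.B ∧ c ∈ Bs.B ∧ a ≠ b ∧ a ≠ c ∧ b ≠ c :=
    Finset.two_lt_card_iff.1 (by rw [Bs.card]; norm_num)
  refine ⟨K 1, K' 1, K 2, K' 2, T, ?_, ?_, hKcard 1 (by norm_num), hK'card 1 (by norm_num), hKcard 2 le_rfl,
    hK'card 2 le_rfl, hTcard, ?_, ?_, ?_, ?_, ?_, ?_, ?_, ?_, ?_, ?_⟩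
  · intro x hx
    rcases hx with (((h | h) | h) | h) | h
    exacts [hnot 1 le_rfl (by norm_num) x (hkind 1 (by norm_num) x (Or.inl h)),
      hnot 1 le_rfl (by norm_num) x (hkind 1 (by norm_num) x (Or.inr h)),
      hnot 2 (by norm_num) (by norm_num) x (hkind 2 (by norm_num) x (Or.inl h)),
      hnot 2 (by norm_num) (by norm_num) x (hkind 2 (by norm_num) x (Or.inr h)),
      hnot 3 (by norm_num) le_rfl x (hkindT x h)]
  · intro x hx hx1 hxd
    obtain ⟨s, hs, hs3, he⟩ := Base.exists_setProd hD hprim ht hcent Bs (show π x ∈ Bs.J from hx)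
    have hxL : x = L s ∨ x = d * L s := hπ.lift_eq (by rw [hπL s hs, he])
    obtain h | h | h | h : s.card = 0 ∨ s.card = 1 ∨ s.card = 2 ∨ s.card = 3 := by omega
    · rw [Finset.card_eq_zero.1 h] at hxL
      simp only [L, setProd_empty, mul_one] at hxL
      exact absurd hxL (not_or.2 ⟨hx1, hxd⟩)
    · rcases hxL with rfl | rfl
      · exact Or.inl (Or.inl (Or.inl (Or.inl ⟨s, hs, h, rfl⟩)))
      · exact Or.inl (Or.inl (Or.inl (Or.inr ⟨s, hs, h, (hdd _).symm⟩)))
    · rcases hxL with rfl | rfl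
      · exact Or.inl (Or.inl (Or.inr ⟨s, hs, h, rfl⟩))
      · exact Or.inl (Or.inr ⟨s, hs, h, (hdd _).symm⟩)
    · exact Or.inr ⟨s, hs, h, he⟩
  · simp only [List.pairwise_cons, List.mem_cons, List.not_mem_nil, or_false, forall_eq_or_imp, forall_eq,
      List.Pairwise.nil, and_true, false_implies, implies_true]
    have d12 : ∀ (A B : Set C) (i j : ℕ), i ≤ 3 → j ≤ 3 → i ≠ j →
        (∀ x ∈ A, ∃ s ⊆ Bs.B, s.card = i ∧ π x = setProd id s) →
        (∀ x ∈ B, ∃ s ⊆ Bs.B, s.card = j ∧ π x = setProd id s) → Disjoint A B := fun A B i j hi hj hij hA hB =>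
      Set.disjoint_left.2 fun x hxA hxB => hsep i hi j hj hij x (hA x hxA) (hB x hxB)
    have k1 : ∀ x ∈ K 1, _ := fun x hx => hkind 1 (by norm_num) x (Or.inl hx)
    have k1' : ∀ x ∈ K' 1, _ := fun x hx => hkind 1 (by norm_num) x (Or.inr hx)
    have k2 : ∀ x ∈ K 2, _ := fun x hx => hkind 2 (by norm_num) x (Or.inl hx)
    have k2' : ∀ x ∈ K' 2, _ := fun x hx => hkind 2 (by norm_num) x (Or.inr hx)
    exact ⟨⟨hKK' 1 (by norm_num), d12 _ _ 1 2 (by norm_num) (by norm_num) (by norm_num) k1 k2,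
        d12 _ _ 1 2 (by norm_num) (by norm_num) (by norm_num) k1 k2',
        d12 _ _ 1 3 (by norm_num) le_rfl (by norm_num) k1 hkindT⟩,
      ⟨d12 _ _ 1 2 (by norm_num) (by norm_num) (by norm_num) k1' k2,
        d12 _ _ 1 2 (by norm_num) (by norm_num) (by norm_num) k1' k2',
        d12 _ _ 1 3 (by norm_num) le_rfl (by norm_num) k1' hkindT⟩,
      ⟨hKK' 2 le_rfl, d12 _ _ 2 3 (by norm_num) le_rfl (by norm_num) k2 hkindT⟩,
      d12 _ _ 2 3 (by norm_num) le_rfl (by norm_num) k2' hkindT⟩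
  · have hdconj : ∀ {x y : C}, IsConj x y → IsConj (d * x) (d * y) := fun {x y} h => by
      obtain ⟨c, rfl⟩ := isConj_iff.1 h
      exact isConj_iff.2 ⟨c, by rw [← mul_assoc, ← (hπ.central c).eq]; group⟩
    have hsame : ∀ k ≤ 2, ∀ x ∈ K k, ∀ y ∈ K k, IsConj x y := by
      rintro k hk x ⟨s, hs, hsk, rfl⟩ y ⟨s', hs', hsk', rfl⟩
      exact hconj s s' hs hs' (hsk.trans hsk'.symm) (by omega)
    have hsame' : ∀ k ≤ 2, ∀ x ∈ K' k, ∀ y ∈ K' k, IsConj x y := fun k hk x hx y hy => by
      have := hdconj (hsame k hk _ hx _ hy)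
      rwa [hdd, hdd] at this
    -- splitting six into two triples
    obtain ⟨s3, hs3, hs3c⟩ := Finset.exists_subset_card_eq (show 3 ≤ six.card by omega)
    have hs3B : s3 ⊆ Bs.B := hs3.trans hsix
    have hr : (six \ s3).card = 3 := by
      rw [Finset.card_sdiff_of_subset hs3]; omega
    have hrB : six \ s3 ⊆ Bs.B := Finset.sdiff_subset.trans hsix
    have hrel : L s3 = d * L (six \ s3) := by
      have h := setProd_union hcm hs3B hrB Finset.disjoint_sdiff
      rw [Finset.union_sdiff_of_subset hs3, show setProd t six = d from hsixd] at h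
      calc L s3 = L s3 * (L (six \ s3) * L (six \ s3)) := by rw [hsq _ (hLP _ hrB), mul_one]
        _ = d * L (six \ s3) := by rw [← mul_assoc]; exact congrArg (· * L (six \ s3)) h.symm
    have hflip : ∀ s ⊆ Bs.B, s.card = 3 → IsConj (L s) (d * L s) := fun s hs hsc => by
      have h2 := hdconj (hconj (six \ s3) s hrB hs (hr.trans hsc.symm) (by omega))
      rw [← hrel] at h2
      exact (hconj s s3 hs hs3B (hsc.trans hs3c.symm) (by omega)).trans h2
    intro S hS
    simp only [List.mem_cons, List.not_mem_nil, or_false] at hS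
    rcases hS with rfl | rfl | rfl | rfl | rfl
    · exact hsame 1 (by norm_num)
    · exact hsame' 1 (by norm_num)
    · exact hsame 2 le_rfl
    · exact hsame' 2 le_rfl
    · rintro x ⟨s, hs, hsc, hx⟩ y ⟨s', hs', hsc', hy⟩
      have hx' : IsConj (L s) x := by
        rcases hπ.lift_eq (show π x = π (L s) by rw [hπL s hs, hx]) with rfl | rfl
        exacts [IsConj.refl _, hflip s hs hsc]
      have hy' : IsConj (L s') y := by
        rcases hπ.lift_eq (show π y = π (L s') by rw [hπL s' hs', hy]) with rfl | rfl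
        exacts [IsConj.refl _, hflip s' hs' hsc']
      exact hx'.symm.trans ((hconj s s' hs hs' (hsc.trans hsc'.symm) (by omega)).trans hy')
  · intro x hx; show d * (d * x) ∈ K 1; rw [hdd]; exact hx
  · exact fun x hx => hx
  · intro x hx; show d * (d * x) ∈ K 2; rw [hdd]; exact hx
  · exact fun x hx => hx
  · rw [← hsixd]
    refine Subgroup.list_prod_mem _ fun x hx => ?_
    obtain ⟨a, ha, rfl⟩ := List.mem_map.1 hx
    exact Subgroup.subset_closure ⟨{a}, Finset.singleton_subset_iff.2 (hsix (Finset.mem_toList.1 ha)),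
      Finset.card_singleton a, setProd_singleton t a⟩
  · have key : ∀ l : List G, (∀ a ∈ l, a ∈ Bs.B) → d ^ l.length * (l.map t).prod ∈ Subgroup.closure (K' 1) := by
      intro l hl
      induction l with
      | nil => simp
      | cons a l ih =>
        have e : d ^ (a :: l).length * ((a :: l).map t).prod = (d * t a) * (d ^ l.length * (l.map t).prod) := by
          rw [List.length_cons, List.map_cons, List.prod_cons, pow_succ']
          rw [show d * d ^ l.length * (t a * (l.map t).prod) = d * (d ^ l.length * t a) * (l.map t).prod by group,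
            ((hπ.central (t a)).pow_left l.length).eq]
          group
        rw [e]
        refine mul_mem (Subgroup.subset_closure ?_) (ih fun b hb => hl b (List.mem_cons_of_mem _ hb))
        show d * (d * t a) ∈ K 1
        rw [hdd]
        exact ⟨{a}, Finset.singleton_subset_iff.2 (hl a List.mem_cons_self), Finset.card_singleton a,
          setProd_singleton t a⟩
    have h := key six.toList fun a ha => hsix (Finset.mem_toList.1 ha)
    rw [Finset.length_toList, hsix6, show (six.toList.map t).prod = d from hsixd, pow_succ, pow_succ, pow_succ,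
      pow_succ, pow_succ, pow_one] at h
    simpa [mul_assoc, hπ.sq, hdd] using h
  · refine ⟨L {a₁, a₂}, ⟨_, ?_, Finset.card_pair n12, rfl⟩, L {a₂, a₃}, ⟨_, ?_, Finset.card_pair n23, rfl⟩, ?_,
      ⟨{a₁, a₃}, ?_, Finset.card_pair n13, ?_⟩⟩
    · simp [Finset.insert_subset_iff, ha1, ha2]
    · simp [Finset.insert_subset_iff, ha2, ha3]
    · intro e
      have h := Base.setProd_inj hD hprim ht hcent Bs (s := {a₁, a₂}) (t := {a₂, a₃})
        (by simp [Finset.insert_subset_iff, ha1, ha2]) (by simp [Finset.insert_subset_iff, ha2, ha3])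
        (by rw [Finset.card_pair n12, Finset.card_pair n23]; norm_num)
        (by rw [← hπL _ (by simp [Finset.insert_subset_iff, ha1, ha2]),
          ← hπL _ (by simp [Finset.insert_subset_iff, ha2, ha3]), e])
      have : a₁ ∈ ({a₂, a₃} : Finset G) := h ▸ Finset.mem_insert_self _ _
      simp [n12, n13] at this
    · simp [Finset.insert_subset_iff, ha1, ha3]
    · show setProd t _ = setProd t _ * setProd t _
      rw [setProd_pair n13 (hcm _ ha1 _ ha3), setProd_pair n12 (hcm _ ha1 _ ha2),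
        setProd_pair n23 (hcm _ ha2 _ ha3),
        show t a₁ * t a₂ * (t a₂ * t a₃) = t a₁ * (t a₂ * t a₂) * t a₃ by group, ht2 a₂ ha2, mul_one]
  · -- two pairs out of six
    obtain ⟨p, hp, hpc⟩ := Finset.exists_subset_card_eq (show 2 ≤ six.card by omega)
    have hr4 : (six \ p).card = 4 := by rw [Finset.card_sdiff_of_subset hp]; omega
    obtain ⟨q, hq, hqc⟩ := Finset.exists_subset_card_eq (show 2 ≤ (six \ p).card by omega)
    have hr2 : ((six \ p) \ q).card = 2 := by rw [Finset.card_sdiff_of_subset hq]; omega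
    have hpB : p ⊆ Bs.B := hp.trans hsix
    have hqB : q ⊆ Bs.B := hq.trans (Finset.sdiff_subset.trans hsix)
    have hrB : (six \ p) \ q ⊆ Bs.B := Finset.sdiff_subset.trans (Finset.sdiff_subset.trans hsix)
    refine ⟨d * L p, ?_, d * L q, ?_, ?_, ?_⟩
    · show d * (d * L p) ∈ K 2; rw [hdd]; exact ⟨p, hpB, hpc, rfl⟩
    · show d * (d * L q) ∈ K 2; rw [hdd]; exact ⟨q, hqB, hqc, rfl⟩
    · intro e
      have h := Base.setProd_inj hD hprim ht hcent Bs hpB hqB (by omega)
        (by rw [← hπL p hpB, ← hπL q hqB, mul_left_cancel e])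
      obtain ⟨a, ha⟩ := Finset.card_pos.1 (show 0 < q.card by omega)
      exact (Finset.mem_sdiff.1 (hq ha)).2 (h ▸ ha)
    · have hsix' : L p * (L q * L ((six \ p) \ q)) = d := by
        show setProd t p * (setProd t q * setProd t _) = d
        rw [← setProd_union hcm hqB hrB Finset.disjoint_sdiff, Finset.union_sdiff_of_subset hq,
          ← setProd_union hcm hpB (Finset.sdiff_subset.trans hsix) Finset.disjoint_sdiff,
          Finset.union_sdiff_of_subset hp]
        exact hsixd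
      refine ⟨(six \ p) \ q, hrB, hr2, ?_⟩
      have h2 : d * L p * (d * L q) = L p * L q := by
        rw [(hπ.central (L p)).symm.mul_mul_mul_comm, hπ.sq, one_mul]
      rw [h2]
      show L _ = d * (L p * L q)
      have h3 : L p * L q = d * L ((six \ p) \ q) := by
        calc L p * L q = L p * (L q * L ((six \ p) \ q)) * L ((six \ p) \ q) := by
              rw [mul_assoc, mul_assoc, hsq _ (hLP _ hrB), mul_one]
          _ = d * L ((six \ p) \ q) := by rw [hsix']
      rw [h3, hdd]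

end CfsgLib.Fischer.DoubleM22
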