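import Cfsg.Agent.Lib.Fischer.DoubleM22.Classes
import Cfsg.Agent.Lib.Fischer.ThompsonOrbit.Count

/-!
An involution whose centralizer is a perfect double cover of a group of type M(22): the conjugates of
that involution in the Thompson subgroup of a Sylow 2-subgroup of its centralizer.
-/

set_option autoImplicit false
set_option linter.unusedSectionVars false

namespace CfsgLib.Fischer.DoubleM22

open CfsgLib.Fischer CfsgLib.InvChar.FischerProducts CfsgLib.InvChar.FischerHexad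
open CfsgLib.InvChar.UnitaryTVTwo CfsgLib.Fischer.TypeTwentyTwo CfsgLib.Fischer.ThompsonOrbit
open CfsgLib.Fischer.InvolutionLists

theorem isElementaryAbelian_map {M N : Type*} [Group M] [Group N] {H : Subgroup M}
    (hH : Cfsg.IsElementaryAbelian 2 H) (f : M →* N) : Cfsg.IsElementaryAbelian 2 (H.map f) := by
  refine ⟨⟨⟨fun a b => Subtype.ext ?_⟩⟩, ?_⟩
  · obtain ⟨u, hu, hua⟩ := a.2
    obtain ⟨v, hv, hvb⟩ := b.2
    show (a : N) * b = b * a
    rw [← hua, ← hvb, ← map_mul, ← map_mul]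
    exact congrArg f (congrArg Subtype.val (hH.1.1.comm ⟨u, hu⟩ ⟨v, hv⟩))
  · rintro _ ⟨u, hu, rfl⟩
    rw [← map_pow, hH.2 u hu, map_one]

theorem isElementaryAbelian_subgroupOf {M : Type*} [Group M] {E K : Subgroup M}
    (hE : Cfsg.IsElementaryAbelian 2 E) : Cfsg.IsElementaryAbelian 2 (E.subgroupOf K) :=
  ⟨⟨⟨fun a b => Subtype.ext (Subtype.ext (by
      show ((a : K) : M) * ((b : K) : M) = ((b : K) : M) * ((a : K) : M)
      exact congrArg Subtype.val (hE.1.1.comm (⟨_, a.2⟩ : E) (⟨_, b.2⟩ : E))))⟩⟩,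
    fun a ha => Subtype.ext (hE.2 (a : M) ha)⟩

theorem map_conj_subtype {M : Type*} [Group M] {K : Subgroup M} (P : Subgroup K) (c : K) :
    (P.map (MulAut.conj c).toMonoidHom).map K.subtype = (P.map K.subtype).map (MulAut.conj (c : M)).toMonoidHom := by
  rw [Subgroup.map_map, Subgroup.map_map]
  rfl

variable {G : Type*} [Group G] [Finite G] {Q : Type*} [Group Q] [Finite Q] {d : G} {D : Set Q}
variable {C : Subgroup G} {π : C →* Q} {dC : C}

theorem thompson_orbit (hC : C = Subgroup.centralizer ({d} : Set G)) (hdC : (dC : G) = d) (hπ : IsDouble π dC) (hD : Cfsg.IsThreeTranspositionGroup D)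
    (hprim : Cfsg.IsPrimitiveUnderConj D) (ht : Cfsg.IsOfTypeM22 Q D)
    (hcent : ∀ e ∈ D, Subgroup.centralizer ({e} : Set Q) = Subgroup.closure (perp D e)) (hJ : ThompsonGenerated D)
    (hnwc : ∃ g : G, g * d * g⁻¹ ∈ C ∧ g * d * g⁻¹ ≠ d)
    (S : Sylow 2 C) (A : Subgroup G)
    (hA : A = (Cfsg.thompsonSubgroupOf 2 (S : Subgroup C)).map C.subtype) :
    Cfsg.IsElementaryAbelian 2 A ∧ Nat.card A = 2 ^ 11 ∧ Set.ncard {x : G | x ∈ A ∧ IsConj d x} = 23 ∧
      ∀ x ∈ A, ∀ y ∈ A, IsConj d x → IsConj d y →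
        ∃ n ∈ Subgroup.normalizer (A : Set G), n * x * n⁻¹ = y := by
  classical
  obtain ⟨Bs⟩ := exists_base hD hprim ht hcent hJ
  obtain ⟨e, he, -⟩ := id hprim.2.1
  obtain ⟨t₀, ht₀⟩ := hπ.surj e
  let P := Bs.P π
  have hPel : Cfsg.IsElementaryAbelian 2 P := isElementary_P hπ hD hprim ht hcent Bs
  have hPcard : Nat.card P = 2 ^ 11 := natCard_P hπ hD hprim ht hcent Bs
  have hdP : dC ∈ P := by show π dC ∈ Bs.J; rw [hπ.map_d]; exact one_mem _
  have hinj : Function.Injective C.subtype := C.subtype_injective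
  let A₀ := P.map C.subtype
  have hA₀el : Cfsg.IsElementaryAbelian 2 A₀ := isElementaryAbelian_map hPel _
  have hA₀card : Nat.card A₀ = 2 ^ 11 := (Subgroup.card_map_of_injective hinj).trans hPcard
  have hdA₀ : d ∈ A₀ := ⟨dC, hdP, hdC⟩
  have hA₀C : A₀ ≤ C := Subgroup.map_subtype_le P
  have hd1 : d ≠ 1 := fun h => hπ.ne (Subtype.ext (hdC.trans h))
  have hmax : ∀ E : Subgroup G, Cfsg.IsElementaryAbelian 2 E → E ≤ Subgroup.centralizer ({d} : Set G) →
      Nat.card A₀ ≤ Nat.card E →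
      ∃ c ∈ Subgroup.centralizer ({d} : Set G), E = A₀.map (MulAut.conj c).toMonoidHom := by
    rw [← hC]
    intro E hE hEC hcard
    obtain ⟨c, hc⟩ := max_P hπ hD hprim ht hcent Bs (isElementaryAbelian_subgroupOf hE (K := C))
      (by rw [Nat.card_congr (Subgroup.subgroupOfEquivOfLe hEC).toEquiv, ← hA₀card]; exact hcard)
    refine ⟨c, c.2, ?_⟩
    rw [← map_conj_subtype, ← hc, Subgroup.map_subgroupOf_eq_of_le hEC]
  -- the five kinds
  obtain ⟨E, E', X, X', T, hsub, hcov, cE, cE', cX, cX', cT, hdisj, hcl, dE, dE', dX, dX', sE, sE', tX, tX'⟩ :=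
    exists_classes hπ hD hprim ht hcent Bs (t₀ := t₀) (ht₀ ▸ he)
  let ι : Set C → Set G := fun s => C.subtype '' s
  have hdmul : ∀ x : C, ((dC * x : C) : G) = d * (x : G) := fun x => by rw [Subgroup.coe_mul, hdC]
  have hdι : ∀ (s s' : Set C), (∀ x ∈ s, dC * x ∈ s') → ∀ x ∈ ι s, d * x ∈ ι s' := by
    rintro s s' h _ ⟨x, hx, rfl⟩
    exact ⟨dC * x, h x hx, hdmul x⟩
  have hspan : ∀ s : Set C, dC ∈ Subgroup.closure s → d ∈ Subgroup.closure (ι s) := fun s hs => by
    rw [← MonoidHom.map_closure]; exact ⟨dC, hs, hdC⟩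
  have htri : ∀ s : Set C, (∃ p ∈ s, ∃ q ∈ s, p ≠ q ∧ p * q ∈ s) → ∃ p ∈ ι s, ∃ q ∈ ι s, p ≠ q ∧ p * q ∈ ι s := by
    rintro s ⟨p, hp, q, hq, hpq, hm⟩
    exact ⟨p, ⟨p, hp, rfl⟩, q, ⟨q, hq, rfl⟩, fun h => hpq (Subtype.ext h), p * q, hm, rfl⟩
  have hun : ι E ∪ ι E' ∪ ι X ∪ ι X' ∪ ι T = ι (E ∪ E' ∪ X ∪ X' ∪ T) := by
    simp only [ι, Set.image_union]
  let Dat : CountData d A₀ :=
    { elem := hA₀el
      card := hA₀card
      mem := hdA₀
      ne := hd1
      E := ι E, E' := ι E', X := ι X, X' := ι X', T := ι T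
      sub := by
        rw [hun]
        rintro _ ⟨x, hx, rfl⟩
        obtain ⟨h1, h2, h3⟩ := hsub x hx
        exact ⟨⟨x, h1, rfl⟩, fun h => h2 (Subtype.ext h), fun h => h3 (Subtype.ext (h.trans hdC.symm))⟩
      cover := by
        rw [hun]
        rintro _ ⟨x, hx, rfl⟩ h1 h2
        exact ⟨x, hcov x hx (fun h => h1 (by rw [h]; rfl)) (fun h => h2 (by rw [h]; exact hdC)), rfl⟩
      cardE := by rw [Set.ncard_image_of_injective _ hinj, cE]
      cardE' := by rw [Set.ncard_image_of_injective _ hinj, cE']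
      cardX := by rw [Set.ncard_image_of_injective _ hinj, cX]
      cardX' := by rw [Set.ncard_image_of_injective _ hinj, cX']
      cardT := by rw [Set.ncard_image_of_injective _ hinj, cT]
      disj := (hdisj.map ι fun a b h => (Set.disjoint_image_iff hinj).2 h)
      class_ := by
        intro s hs
        obtain ⟨s₀, hs₀, rfl⟩ : ∃ s₀ ∈ [E, E', X, X', T], ι s₀ = s := List.mem_map.1 (show s ∈ [E, E', X, X', T].map ι from hs)
        rintro _ ⟨x, hx, rfl⟩ _ ⟨y, hy, rfl⟩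
        exact C.subtype.map_isConj (hcl s₀ hs₀ x hx y hy)
      dE := hdι _ _ dE, dE' := hdι _ _ dE', dX := hdι _ _ dX, dX' := hdι _ _ dX'
      spanE := hspan _ sE, spanE' := hspan _ sE'
      triX := htri _ tX, triX' := htri _ tX' }
  -- the normalizer and centralizer inside the centralizer of `d`
  obtain ⟨j, hj, hidx⟩ := Base.exists_index hD hprim ht hcent Bs
  have hN : Subgroup.normalizer (A₀ : Set G) ⊓ C = (Subgroup.normalizer (P : Set C)).map C.subtype := by
    ext x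
    constructor
    · rintro ⟨hx, hxC⟩
      refine ⟨⟨x, hxC⟩, Subgroup.mem_normalizer_iff.2 fun y => ?_, rfl⟩
      rw [← Subgroup.mem_map_iff_mem hinj (K := P) (x := y), ← Subgroup.mem_map_iff_mem hinj (K := P) (x := _ * y * _)]
      exact Subgroup.mem_normalizer_iff.1 hx (y : G)
    · rintro ⟨n, hn, rfl⟩
      refine ⟨mem_normalizer_of_map_eq ?_, n.2⟩
      show (P.map C.subtype).map (MulAut.conj (n : G)).toMonoidHom = P.map C.subtype
      rw [← map_conj_subtype, map_eq_of_mem_normalizer hn]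
  have hCA : Subgroup.centralizer (A₀ : Set G) = (Subgroup.centralizer (P : Set C)).map C.subtype := by
    ext x
    constructor
    · intro hx
      have hxC : x ∈ C := hC.ge (Subgroup.mem_centralizer_singleton_iff.2 (hx d hdA₀).symm)
      exact ⟨⟨x, hxC⟩, fun y hy => Subtype.ext (hx y ⟨y, hy, rfl⟩), rfl⟩
    · rintro ⟨n, hn, rfl⟩ _ ⟨y, hy, rfl⟩
      exact congrArg Subtype.val (hn y hy)
  have hidx' : Nat.card ↥(Subgroup.normalizer (A₀ : Set G) ⊓ Subgroup.centralizer ({d} : Set G)) =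
      147840 * 3 ^ j * Nat.card (Subgroup.centralizer (A₀ : Set G)) := by
    rw [← hC, hN, hCA, Subgroup.card_map_of_injective hinj, Subgroup.card_map_of_injective hinj,
      natCard_normalizer_P hπ hD hprim ht hcent Bs, natCard_centralizer_P hπ hD hprim ht hcent Bs, hidx]
    ring
  -- another conjugate of `d` in the base
  have hnwc' : ∃ x ∈ A₀, x ≠ d ∧ IsConj d x := by
    obtain ⟨g, hgC, hgd⟩ := hnwc
    let x : C := ⟨g * d * g⁻¹, hgC⟩
    have hx2 : x * x = 1 := by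
      refine Subtype.ext ?_
      show g * d * g⁻¹ * (g * d * g⁻¹) = 1
      have hdd : d * d = 1 := hdC ▸ congrArg Subtype.val hπ.sq
      calc g * d * g⁻¹ * (g * d * g⁻¹) = g * (d * d) * g⁻¹ := by group
        _ = 1 := by rw [hdd, mul_one, mul_inv_cancel]
    obtain ⟨m, hm, l, hnd, hlen, hlD, hlc, hprod⟩ :=
      exists_fact hD hprim ht (x := π x) (by rw [← map_mul, hx2, map_one])
    obtain ⟨s, hs, hsm⟩ := Finset.exists_subset_card_eq (show m ≤ Bs.B.card by rw [Bs.card]; omega)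
    obtain ⟨h, hh⟩ := trans_le_three hD hprim ht hm l s.toList hnd (Finset.nodup_toList _) hlen
      ((Finset.length_toList _).trans hsm) hlD (fun a ha => Bs.sub a (hs (Finset.mem_toList.1 ha))) hlc
      (fun a ha b hb => Bs.comm a (hs (Finset.mem_toList.1 ha)) b (hs (Finset.mem_toList.1 hb)))
    obtain ⟨c, rfl⟩ := hπ.surj h
    have hcP : c * x * c⁻¹ ∈ P := by
      show π (c * x * c⁻¹) ∈ Bs.J
      rw [map_mul, map_mul, map_inv, ← MulAut.conj_apply, ← hprod, map_list_prod, hh]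
      exact Subgroup.list_prod_mem _ fun a ha => Subgroup.subset_closure (hs (Finset.mem_toList.1 ha))
    refine ⟨_, ⟨_, hcP, rfl⟩, fun h => hgd ?_, ?_⟩
    · have h' : c * x * c⁻¹ = dC := Subtype.ext (h.trans hdC.symm)
      have hx : x = dC := by
        calc x = c⁻¹ * (c * x * c⁻¹) * c := by group
          _ = dC := by rw [h', mul_assoc, (hπ.central c).eq, inv_mul_cancel_left]
      exact (congrArg Subtype.val hx).trans hdC
    · exact (isConj_iff.2 ⟨g, rfl⟩ : IsConj d (g * d * g⁻¹)).trans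
        (isConj_iff.2 ⟨(c : G), rfl⟩)
  have h23 := Dat.ncard_eq hmax hj hidx' hnwc'
  -- transfer to the given Sylow subgroup
  obtain ⟨c, hcS⟩ := thompson_P hπ hD hprim ht hcent Bs S
  have hAeq : A = A₀.map (MulAut.conj (c : G)).toMonoidHom := by rw [hA, hcS, map_conj_subtype]
  have hAel : Cfsg.IsElementaryAbelian 2 A := hAeq ▸ isElementaryAbelian_map hA₀el _
  have hAcard : Nat.card A = Nat.card A₀ := by
    rw [hAeq]; exact Subgroup.card_map_of_injective (MulAut.conj (c : G)).injective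
  have hmaxA : ∀ E : Subgroup G, Cfsg.IsElementaryAbelian 2 E → E ≤ Subgroup.centralizer ({d} : Set G) →
      Nat.card A ≤ Nat.card E →
      ∃ c' ∈ Subgroup.centralizer ({d} : Set G), E = A.map (MulAut.conj c').toMonoidHom := by
    intro E hE hEC hcard
    obtain ⟨c', hc', rfl⟩ := hmax E hE hEC (hAcard ▸ hcard)
    refine ⟨c' * (c : G)⁻¹, mul_mem hc' (inv_mem (hC.le c.2)), ?_⟩
    rw [hAeq, map_conj_conj, inv_mul_cancel_right]
  refine ⟨hAel, hAcard.trans hA₀card, ?_, fun x hx y hy hcx hcy => exists_normalizer_move₂ hAel hmaxA hx hy hcx hcy⟩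
  have hset : {x : G | x ∈ A ∧ IsConj d x} = (MulAut.conj (c : G)) '' {x : G | x ∈ A₀ ∧ IsConj d x} := by
    ext y
    constructor
    · rintro ⟨hy, hcy⟩
      rw [hAeq] at hy
      obtain ⟨z, hz, rfl⟩ := hy
      exact ⟨z, ⟨hz, hcy.trans (isConj_iff.2 ⟨(c : G), rfl⟩).symm⟩, rfl⟩
    · rintro ⟨z, ⟨hz, hcz⟩, rfl⟩
      exact ⟨hAeq ▸ ⟨z, hz, rfl⟩, hcz.trans (isConj_iff.2 ⟨(c : G), rfl⟩)⟩
  rw [hset, Set.ncard_image_of_injective _ (MulAut.conj (c : G)).injective, h23]

end CfsgLib.Fischer.DoubleM22
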