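import Cfsg.Agent.Lib.Fischer.TypeTwentyTwoPairQuotient
import Cfsg.Agent.Lib.SchurMult.Criterion

/-!
Groups of type M(22): the centralizer of a commuting pair of members is perfect.
-/

set_option autoImplicit false
set_option linter.unusedSectionVars false

namespace CfsgLib.Fischer.DoubleM22

open CfsgLib.Fischer CfsgLib.InvChar.FischerProducts CfsgLib.InvChar.FischerHexad
open CfsgLib.InvChar.UnitaryTVTwo CfsgLib.Fischer.UnitaryPoint CfsgLib.Fischer.TypeTwentyTwo Matrix
open scoped commutatorElement

variable {G : Type*} [Group G] [Finite G] {D : Set G}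
variable (hD : Cfsg.IsThreeTranspositionGroup D) (hprim : Cfsg.IsPrimitiveUnderConj D)
  (ht : Cfsg.IsOfTypeM22 G D) (hcent : ∀ e ∈ D, Subgroup.centralizer ({e} : Set G) = Subgroup.closure (perp D e))

include hD hprim ht hcent

theorem natCard_centralizer_singleton {a : G} (ha : a ∈ D) :
    Nat.card (Subgroup.centralizer ({a} : Set G)) = 18393661440 :=
  natCard_centralizer hD hprim ht ha

theorem natCard_pairCent' {a b : G} (ha : a ∈ D) (hb : b ∈ perp D a) :
    Nat.card (pairCent a b) = 1024 * 25920 := by
  obtain ⟨F, _, _, ⟨P⟩⟩ := exists_picture hD hprim ht ha hb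
  exact P.natCard_pairCent (ne_one hD.1 ha) (mem_D_pairCent hD hprim ht ha hb).1

/-- The first member of a pair is in the derived group of the centralizer of the pair. -/
theorem mem_commutator_pairCent {a b : G} (ha : a ∈ D) (hb : b ∈ perp D a) :
    a ∈ ⁅pairCent a b, pairCent a b⁆ := by
  let H := Subgroup.closure (perp D a)
  have hle : pairCent a b ≤ H := fun k hk => centralizer_mem hD hprim ht ha (mem_pairCent.1 hk).1
  have haH : a ∈ H := mem_closure_perp hD hprim ht ha
  have hz : (⟨a, haH⟩ : H) ∈ Subgroup.center H := by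
    refine Subgroup.mem_center_iff.2 fun g => Subtype.ext ?_
    exact (commute_d (H := H) rfl g.2).symm.eq
  have := isPerfect hD hprim ht ha
  have hc : (⟨a, haH⟩ : H) ∈ _root_.commutator H := by
    rw [Group.IsPerfect.commutator_eq_top]; exact Subgroup.mem_top _
  have h1 := CfsgLib.SchurMult.pow_index_mem_commutator ((pairCent a b).subgroupOf H) hz hc
  have h2 := Subgroup.mem_map_of_mem H.subtype h1
  rw [Subgroup.map_commutator, Subgroup.map_subgroupOf_eq_of_le hle] at h2
  have hi : ((pairCent a b).subgroupOf H).index * Nat.card (pairCent a b) = Nat.card H := by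
    rw [← Nat.card_congr (Subgroup.subgroupOfEquivOfLe hle).toEquiv, mul_comm, Subgroup.card_mul_index]
  rw [natCard_pairCent' hD hprim ht hcent ha hb, show Nat.card H = 18393661440 by
    rw [← natCard_centralizer_singleton hD hprim ht hcent ha, hcent a ha]] at hi
  have hidx : ((pairCent a b).subgroupOf H).index = 2 * 346 + 1 := by omega
  rw [map_pow] at h2
  have ha2 : a ^ 2 = 1 := by rw [pow_two]; exact sq_eq_one hD.1 ha
  rwa [hidx, show ((H.subtype) ⟨a, haH⟩ : G) = a from rfl, pow_succ, pow_mul, ha2, one_pow, one_mul] at h2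

/-- The centralizer of a pair is perfect. -/
theorem pairCent_perfect {a b : G} (ha : a ∈ D) (hb : b ∈ perp D a) :
    ⁅pairCent a b, pairCent a b⁆ = pairCent a b := by
  classical
  refine le_antisymm (Subgroup.commutator_le.2 fun x hx y hy =>
    mul_mem (mul_mem (mul_mem hx hy) (inv_mem hx)) (inv_mem hy)) fun k hk => ?_
  obtain ⟨F, _, _, ⟨P⟩⟩ := exists_picture hD hprim ht ha hb
  obtain ⟨haK, hbK⟩ := mem_D_pairCent hD hprim ht ha hb
  have ha' := mem_commutator_pairCent hD hprim ht hcent ha hb
  have hb' := mem_commutator_pairCent hD hprim ht hcent hb.1 (perp_symm hD hprim ht ha hb)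
  rw [show pairCent b a = pairCent a b by
    unfold pairCent; rw [Set.pair_comm]] at hb'
  suffices hall : _root_.commutator (pairCent a b) = ⊤ by
    have h := congrArg (Subgroup.map (pairCent a b).subtype) hall
    rw [commutator_def, Subgroup.map_commutator, ← MonoidHom.range_eq_map, Subgroup.range_subtype] at h
    rw [h]; exact hk
  have hsub : ∀ x : pairCent a b, (x : G) ∈ ⁅pairCent a b, pairCent a b⁆ →
      x ∈ _root_.commutator (pairCent a b) := by
    intro x hx
    have e : ⁅pairCent a b, pairCent a b⁆ = (_root_.commutator (pairCent a b)).map (pairCent a b).subtype := by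
      rw [commutator_def, Subgroup.map_commutator, ← MonoidHom.range_eq_map, Subgroup.range_subtype]
    rw [e] at hx
    obtain ⟨y, hy, hyx⟩ := hx
    rwa [← show y = x from Subtype.ext hyx]
  set W₁ := _root_.commutator (pairCent a b) with hW₁
  haveI := isSimple_su4 (F := F) P.card
  have hsu : _root_.commutator (Cfsg.SU 4 F 2) = ⊤ := by
    rcases IsSimpleGroup.eq_bot_or_eq_top_of_normal (_root_.commutator (Cfsg.SU 4 F 2)) inferInstance with h | h
    · exfalso
      have hab : ∀ x y : Cfsg.SU 4 F 2, x * y = y * x := fun x y =>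
        commutatorElement_eq_one_iff_mul_comm.1 (Subgroup.mem_bot.1 (h ▸
          Subgroup.commutator_mem_commutator (Subgroup.mem_top x) (Subgroup.mem_top y)))
      have hc : Subgroup.center (Cfsg.SU 4 F 2) = ⊤ :=
        eq_top_iff.2 fun x _ => Subgroup.mem_center_iff.2 fun y => hab y x
      rw [center_su4 P.card] at hc
      have h2 := natCard_su4 (F := F) P.card
      rw [← Subgroup.card_top, ← hc, Subgroup.card_bot] at h2
      omega
    · exact h
  have hpsiW : ∀ s : Cfsg.SU 4 F 2, ∃ y ∈ W₁, P.proj y = s := by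
    intro s
    have : s ∈ W₁.map P.proj := by
      rw [hW₁, commutator_def, Subgroup.map_commutator, Subgroup.map_top_of_surjective _ P.proj_surjective,
        ← commutator_def, hsu]
      exact Subgroup.mem_top _
    exact this
  -- the columns of the derived group inside the kernel
  let U : AddSubgroup (Fin 4 → F) :=
    { carrier := {v | ∃ y ∈ W₁, P.proj y = 1 ∧ col (P.φ y) = v}
      zero_mem' := ⟨1, one_mem _, map_one _, by rw [map_one, col_one P.card]⟩
      add_mem' := fun {v v'} h h' => by
        obtain ⟨y, hy, hp, rfl⟩ := h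
        obtain ⟨y', hy', hp', rfl⟩ := h'
        exact ⟨y * y', mul_mem hy hy', by rw [map_mul, hp, hp', one_mul],
          by rw [map_mul, col_mul_ker P.card hp]⟩
      neg_mem' := fun {v} h => by
        obtain ⟨y, hy, hp, rfl⟩ := h
        exact ⟨y, hy, hp, funext fun i => eq_neg_of_add_eq_zero_left (add_self P.card _)⟩ }
  have hdiff : ∀ (A : Cfsg.SU 4 F 2) (v : Fin 4 → F), mat A *ᵥ v + v ∈ U := by
    intro A v
    obtain ⟨g, hg⟩ := P.proj_surjective A
    obtain ⟨s, hs1, hs2⟩ := exists_lift P.card v
    obtain ⟨x, hx⟩ := P.surj s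
    have hpx : P.proj x = 1 := by show psi P.card (P.φ x) = 1; rw [hx, hs1]
    refine ⟨⁅g, x⁆, Subgroup.commutator_mem_commutator (Subgroup.mem_top _) (Subgroup.mem_top _), ?_, ?_⟩
    · rw [map_commutatorElement, hpx, commutatorElement_one_right]
    · have hgx : psi P.card (P.φ g * P.φ x * (P.φ g)⁻¹) = 1 := by
        rw [map_mul, map_mul, map_inv, show psi P.card (P.φ x) = 1 from hpx, mul_one, mul_inv_cancel]
      have hxi : col (P.φ x)⁻¹ = col (P.φ x) := by
        have h := col_mul_ker P.card (show psi P.card (P.φ x) = 1 from hpx) (P.φ x)⁻¹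
        rw [mul_inv_cancel, col_one P.card] at h
        funext i
        have hi := congrFun h i
        exact (eq_neg_of_add_eq_zero_right hi.symm).trans
          (eq_neg_of_add_eq_zero_left (add_self P.card _)).symm
      rw [map_commutatorElement, commutatorElement_def, col_mul_ker P.card hgx, hxi,
        col_conj P.card (P.φ g) hpx, hx, hs2]
      rw [show psi P.card (P.φ g) = A from hg]
  obtain ⟨w, hw0, hw1⟩ : ∃ w : F, w ≠ 0 ∧ w ≠ 1 := by
    obtain ⟨θ, -, -, h0, h1, -⟩ := exists_theta (F := F) P.card
    exact ⟨θ, h0, h1⟩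
  have hbasis : ∀ (i : Fin 4) (c : F), Pi.single i c ∈ U := by
    intro i c
    obtain ⟨j, hj⟩ : ∃ j : Fin 4, j ≠ i := exists_ne i
    let dd : Fin 4 → F := Function.update (Function.update 1 i w) j (w ^ 2)
    obtain ⟨A, hA⟩ := exists_diag P.card dd (fun k => by
      simp only [dd, Function.update_apply]
      split_ifs <;> simp [hw0]) (by
      have h3 := pow_three P.card hw0
      simp only [dd, Finset.prod_update_of_mem (Finset.mem_univ j)]
      rw [show (Finset.univ \ {j} : Finset (Fin 4)) = Finset.univ.erase j from Finset.sdiff_singleton_eq_erase _ _,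
        Finset.prod_update_of_mem (Finset.mem_erase.2 ⟨hj.symm, Finset.mem_univ i⟩)]
      simp only [Pi.one_apply, Finset.prod_const_one, mul_one]
      rw [← h3]; ring)
    have hw' : w + 1 ≠ 0 := fun h => hw1 (by
      rw [← add_self P.card (1 : F)] at h
      exact add_right_cancel h)
    have h := hdiff A (Pi.single i (c / (w + 1)))
    rwa [show mat A *ᵥ Pi.single i (c / (w + 1)) + Pi.single i (c / (w + 1)) = Pi.single i c by
      funext k
      rw [Pi.add_apply, hA]
      by_cases hk : k = i
      · subst hk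
        simp only [dd, Function.update_apply, if_neg hj.symm, if_true, Pi.single_eq_same]
        field_simp
      · simp [Pi.single_eq_of_ne hk]] at h
  have hUtop : ∀ v, v ∈ U := fun v => by
    rw [← Finset.univ_sum_single v]
    exact sum_mem fun i _ => hbasis i _
  refine eq_top_iff.2 fun x _ => ?_
  obtain ⟨y, hy, hyx⟩ := hpsiW (P.proj x)
  have hk1 : P.proj (x * y⁻¹) = 1 := by rw [map_mul, map_inv, hyx, mul_inv_cancel]
  obtain ⟨z, hz, hz1, hzc⟩ := hUtop (col (P.φ (x * y⁻¹)))
  have hpair : x * y⁻¹ * z⁻¹ ∈ W₁ := by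
    refine hsub _ ?_
    have hpsi : psi P.card (P.φ (x * y⁻¹ * z⁻¹)) = 1 := by
      show P.proj (x * y⁻¹ * z⁻¹) = 1
      rw [map_mul, hk1, map_inv, hz1, inv_one, one_mul]
    have hcol : col (P.φ (x * y⁻¹ * z⁻¹)) = 0 := by
      have h := col_mul_ker P.card hpsi (P.φ z)
      rw [← map_mul, inv_mul_cancel_right, hzc] at h
      exact right_eq_add.1 h
    have hm : ((x * y⁻¹ * z⁻¹ : pairCent a b) : G) ∈ Subgroup.closure ({a, b} : Set G) :=
      pair_cases hD hprim ht ha hb (P.mem_pair_of_phi hbK (eq_of_col_zero P.card hpsi hcol))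
    exact ((Subgroup.closure_le _).2 (by
      rintro _ (rfl | rfl)
      exacts [ha', hb'])) hm
  rw [show x = (x * y⁻¹ * z⁻¹) * z * y by group]
  exact mul_mem (mul_mem hpair hz) hy

end CfsgLib.Fischer.DoubleM22
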