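import Cfsg.Agent.Lib.Fischer.DoubleM22.Setting

/-!
Twenty-one commuting members over the points of a plane, and six members with trivial product whose
lifts in a class multiply to the central involution.
-/

set_option autoImplicit false
set_option linter.unusedSectionVars false
set_option maxRecDepth 100000

namespace CfsgLib.Fischer.DoubleM22

open CfsgLib.Fischer CfsgLib.InvChar.FischerProducts CfsgLib.InvChar.FischerHexad
open CfsgLib.InvChar.UnitaryTVTwo CfsgLib.Fischer.TypeTwentyTwo CfsgLib.SchurMult.PSUSixTwo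

theorem point_moves : ∀ p < 21, moves [pt p] = true := by decide +kernel

theorem point_pair_moves : ∀ p < 21, ∀ r < 21, p ≠ r → moves [pt p, pt r] = true := by decide +kernel

theorem point_code : ∀ p < 21, okV (pt p) = true ∧ okV [0, 0, 0, 0, 0, 0] = true ∧
    pt p ≠ [0, 0, 0, 0, 0, 0] := by decide +kernel

variable {G : Type*} [Group G] [Finite G] {D : Set G} {F : Type} [Field F] [Fintype F]

/-- Members over the twenty-one points. -/
structure Plane (D : Set G) (e : G) (F : Type) [Field F] [Fintype F] where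
  q : Coord F
  eq : (Subgroup.closure (perp D e) ⧸ Subgroup.center (Subgroup.closure (perp D e))) ≃* Cfsg.PSU 6 F 2
  x : ℕ → Subgroup.closure (perp D e)
  mem : ∀ p < 21, (x p : G) ∈ perp D e
  img : ∀ p < 21, quotMap eq (x p) = q.pel [pt p]
  inj : ∀ p < 21, ∀ r < 21, (x p : G) = x r → p = r
  comm : ∀ p < 21, ∀ r < 21, Commute (x p : G) (x r)

variable (hD : Cfsg.IsThreeTranspositionGroup D) (hprim : Cfsg.IsPrimitiveUnderConj D)
  (ht : Cfsg.IsOfTypeM22 G D)

include hD hprim ht

theorem exists_plane {e : G} (he : e ∈ D) :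
    ∃ (F : Type) (_ : Field F) (_ : Fintype F), Nonempty (Plane D e F) := by
  classical
  have hG := good_of_primitive hD hprim ht.1
  obtain ⟨F, iF, iF', hF, ⟨eq⟩⟩ := exists_equiv_of_type22 hD hprim ht he
  obtain ⟨q⟩ := exists_coord hF
  let H : Subgroup G := Subgroup.closure (perp D e)
  obtain ⟨hT, hconj⟩ := image_tt hG he (H := H) rfl eq
  have hne := (memberSet_nonempty hD hprim ht he).image (quotMap eq)
  have hv : ∀ p < 21, ∃ x ∈ memberSet D e H, quotMap eq x = q.pel [pt p] := by
    intro p hp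
    have hiso := q.iso_herm (point_facts p hp).1
    have h0 : q.vec (pt p) ≠ 0 := by
      intro h
      refine (point_code p hp).2.2 (q.vec_injective (point_code p hp).1 (point_code p hp).2.1 ?_)
      rw [h]
      funext i
      fin_cases i <;> rfl
    obtain ⟨x, hx, hxe⟩ := pv_mem hF (by norm_num) hT hconj hne hiso h0
    refine ⟨x, hx, hxe.trans ?_⟩
    simp only [Coord.pel, Coord.el, List.map_cons, List.map_nil, List.prod_cons, List.prod_nil, mul_one,
      Coord.tvS]
    rw [dif_pos hiso]
    rfl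
  have hv' : ∀ p, ∃ x : H, p < 21 → x ∈ memberSet D e H ∧ quotMap eq x = q.pel [pt p] := fun p => by
    by_cases hp : p < 21
    · obtain ⟨x, h1, h2⟩ := hv p hp
      exact ⟨x, fun _ => ⟨h1, h2⟩⟩
    · exact ⟨1, fun h => absurd h hp⟩
  choose x hx using hv'
  refine ⟨F, iF, iF', ⟨{
    q := q
    eq := eq
    x := x
    mem := fun p hp => (hx p hp).1
    img := fun p hp => (hx p hp).2
    inj := ?_
    comm := ?_ }⟩⟩
  · intro p hp r hr h
    by_contra hne
    refine q.moves_ne (point_pair_moves p hp r hr hne) ?_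
    rw [q.pel_cons, ← (hx p hp).2, show x p = x r from Subtype.ext h, (hx r hr).2]
    exact q.pt_sq hr
  · intro p hp r hr
    exact commute_of_quotMap hG he (H := H) rfl eq (hx p hp).1 (hx r hr).1 (by
      rw [(hx p hp).2, (hx r hr).2]; exact q.pt_comm hp hr)

variable {C : Type*} [Group C] [Finite C] {π : C →* G} {d : C} (hπ : IsDouble π d)
  (hcent : ∀ e ∈ D, Subgroup.centralizer ({e} : Set G) = Subgroup.closure (perp D e))

include hπ hcent

/-- Six commuting members with trivial product whose lifts in one class have product `d`. -/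
theorem exists_relation {t₀ : C} (h0 : π t₀ ∈ D) :
    ∃ l : List C, l.length = 6 ∧ (∀ t ∈ l, IsConj t₀ t ∧ π t ∈ D) ∧ (l.map π).Nodup ∧
      (∀ t ∈ l, ∀ u ∈ l, Commute (π t) (π u)) ∧ (l.map π).prod = 1 ∧ l.prod = d := by
  classical
  have hG := good_of_primitive hD hprim ht.1
  obtain ⟨F, iF, iF', ⟨P⟩⟩ := exists_plane hD hprim ht h0
  set q := P.q
  let H : Subgroup G := Subgroup.closure (perp D (π t₀))
  let K := H.comap π
  let σ : K →* Cfsg.PSU 6 F 2 := (quotMap P.eq).comp (π.subgroupComap H)
  have hs : Function.Surjective σ := fun p => by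
    obtain ⟨z, hz⟩ := (P.eq.surjective.comp (QuotientGroup.mk'_surjective _)) p
    obtain ⟨c, hc⟩ := hπ.surj z
    refine ⟨⟨c, by show π c ∈ H; rw [hc]; exact z.2⟩, ?_⟩
    rw [← hz]
    exact congrArg (quotMap P.eq) (Subtype.ext hc)
  have hdK : d ∈ K := by show π d ∈ H; rw [hπ.map_d]; exact one_mem _
  have htK : t₀ ∈ K := mem_closure_perp hD hprim ht h0
  let dK : K := ⟨d, hdK⟩
  let tK : K := ⟨t₀, htK⟩
  have hker : ∀ c : K, σ c = 1 → c = 1 ∨ c = dK ∨ c = tK ∨ c = dK * tK := by
    intro c hc
    have hz' := (quotMap_eq_one P.eq).1 hc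
    rcases center_le hD hprim ht h0 (π.subgroupComap H c).2 (fun f hf =>
      (congrArg Subtype.val (Subgroup.mem_center_iff.1 hz' ⟨f, Subgroup.subset_closure hf⟩)).symm) with h | h
    · rcases (hπ.ker (c : C)).1 h with k | k
      · exact Or.inl (Subtype.ext k)
      · exact Or.inr (Or.inl (Subtype.ext k))
    · rcases hπ.lift_eq (show π (c : C) = π t₀ from h) with k | k
      · exact Or.inr (Or.inr (Or.inl (Subtype.ext k)))
      · exact Or.inr (Or.inr (Or.inr (Subtype.ext k)))
  have hσd : σ dK = 1 := by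
    show quotMap P.eq (π.subgroupComap H dK) = 1
    rw [show π.subgroupComap H dK = 1 from Subtype.ext hπ.map_d, map_one]
  have hσt : σ tK = 1 := by
    show quotMap P.eq (π.subgroupComap H tK) = 1
    refine (quotMap_eq_one P.eq).2 (Subgroup.mem_center_iff.2 fun g => Subtype.ext ?_)
    exact (commute_d (H := H) rfl g.2).symm.eq
  have htc : ∀ c : K, Commute tK c := fun c =>
    Subtype.ext (commute_member hπ hD hprim ht hcent h0 rfl c.2).symm.eq
  have hdc : ∀ c : K, Commute dK c := fun c => Subtype.ext (hπ.central c).eq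
  have hkz : ∀ z : K, σ z = 1 → ∀ c, Commute z c := by
    intro z hz c
    rcases hker z hz with rfl | rfl | rfl | rfl
    exacts [Commute.one_left c, hdc c, htc c, (hdc c).mul_left (htc c)]
  have hc : σ.ker ≤ Subgroup.center K := fun z hz =>
    Subgroup.mem_center_iff.2 fun c => (hkz z hz c).symm.eq
  have hdder : dK ∈ _root_.commutator K := by
    have h := mem_commutator_comap hπ hD hprim ht hcent h0
    rw [show ⁅H.comap π, H.comap π⁆ = (_root_.commutator K).map K.subtype by
      rw [commutator_def, Subgroup.map_commutator, ← MonoidHom.range_eq_map, Subgroup.range_subtype]] at h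
    obtain ⟨y, hy, hyd⟩ := h
    rwa [← show y = dK from Subtype.ext hyd]
  have htder : tK ∈ _root_.commutator K := by
    have := isPerfect hD hprim ht h0
    have hsp : Function.Surjective (π.subgroupComap H) := fun x => by
      obtain ⟨c, hc'⟩ := hπ.surj x
      exact ⟨⟨c, by show π c ∈ H; rw [hc']; exact x.2⟩, Subtype.ext hc'⟩
    obtain ⟨y, hy, hyt⟩ : π.subgroupComap H tK ∈ (_root_.commutator K).map (π.subgroupComap H) := by
      rw [commutator_def, Subgroup.map_commutator, Subgroup.map_top_of_surjective _ hsp, ← commutator_def,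
        Group.IsPerfect.commutator_eq_top]
      exact Subgroup.mem_top _
    rcases hπ.lift_eq (congrArg Subtype.val hyt) with k | k
    · rwa [← show y = tK from Subtype.ext k]
    · rw [show tK = dK * y from Subtype.ext (by
        show t₀ = d * (y : C)
        rw [k]; show t₀ = d * (d * t₀); rw [← mul_assoc, hπ.sq, one_mul])]
      exact mul_mem hdder hy
  have hst : Cfsg.IsStemExtension σ := ⟨hs, hc, fun z hz => by
    rcases hker z hz with rfl | rfl | rfl | rfl
    exacts [one_mem _, hdder, htder, mul_mem hdder htder]⟩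
  obtain ⟨w, hw⟩ := exists_sys (q := q) hc hs
  -- the lifts of the members
  have hT : ∀ p, ∃ t : C, p < 21 → IsConj t₀ t ∧ π t = (P.x p : G) := fun p => by
    by_cases hp : p < 21
    · obtain ⟨t, h⟩ := exists_lift hπ hD hprim ht hcent h0 (P.mem p hp).1
      exact ⟨t, fun _ => h⟩
    · exact ⟨1, fun h => absurd h hp⟩
  choose t htt using hT
  have htmem : ∀ p, p < 21 → t p ∈ K := fun p hp => by
    show π (t p) ∈ H
    rw [(htt p hp).2]; exact (P.x p).2
  let s : ℕ → K := fun p => if hp : p < 21 then ⟨t p, htmem p hp⟩ else 1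
  have hsv : ∀ p < 21, (s p : C) = t p := fun p hp => by simp [s, hp]
  have hsσ : ∀ p < 21, σ (s p) = q.pel [pt p] := fun p hp => by
    rw [← P.img p hp]
    exact congrArg (quotMap P.eq) (Subtype.ext (by
      show π (s p : C) = _
      rw [hsv p hp, (htt p hp).2]))
  have hsconj : ∀ (g : K) (i : ℕ), i < 5 → σ g = q.pel (gw i) → ∀ p < 21, g * s p * g⁻¹ = s (actN i p) := by
    intro g i hi hg p hp
    have hp' := (act_facts i hi p hp).1
    have hσeq : σ (g * s p * g⁻¹) = σ (s (actN i p)) := by
      rw [map_mul, map_mul, map_inv, hg, hsσ p hp, q.conj_gen hi hp, hsσ _ hp']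
    have hπeq : π (g * s p * g⁻¹ : K) = (P.x (actN i p) : G) := by
      have hmem : π ((g : C) * t p * (g : C)⁻¹) ∈ perp D (π t₀) := by
        rw [map_mul, map_mul, map_inv, (htt p hp).2]
        have h := CfsgLib.InvChar.FischerHexad.perp_conj hD (π (g : C)) (P.mem p hp)
        rwa [MulAut.conj_apply, MulAut.conj_apply,
          (commute_d (H := H) rfl g.2).symm.eq, mul_inv_cancel_right] at h
      refine congrArg Subtype.val (quotMap_inj hG h0 (H := H) rfl P.eq
        (x := π.subgroupComap H (g * s p * g⁻¹)) (y := P.x (actN i p)) ?_ (P.mem _ hp') ?_)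
      · show π ((g * s p * g⁻¹ : K) : C) ∈ perp D (π t₀)
        simpa [hsv p hp] using hmem
      · exact hσeq.trans ((hsσ _ hp').trans (P.img _ hp').symm)
    refine Subtype.ext ?_
    rw [hsv _ hp']
    refine lift_unique hπ hD hprim ht hcent (by rw [(htt _ hp').2]; exact (P.mem _ hp').1)
      (((htt _ hp').1.symm.trans (htt p hp).1).trans (isConj_iff.2 ⟨(g : C), ?_⟩)) (hπeq.trans (htt _ hp').2.symm)
    simp [hsv p hp]
  -- the two systems differ by one central element
  have hk : ∀ p < 21, s p * w p = s 5 * w 5 := by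
    intro p hp
    obtain ⟨htree, h5⟩ := tree_facts p hp
    obtain ⟨g, hg⟩ := hs (q.pel (ex (tree.getD p [])))
    have hpre : Pre q σ s := ⟨hsσ, hsconj⟩
    have e1 := hpre.conj_word hc hs htree hg (by norm_num : (5 : ℕ) < 21)
    have e2 := hw.toPre.conj_word hc hs htree hg (by norm_num : (5 : ℕ) < 21)
    rw [h5] at e1 e2
    have hz : σ (s 5 * w 5) = 1 := by
      rw [map_mul, hsσ 5 (by norm_num), hw.map 5 (by norm_num)]; exact q.pt_sq (by norm_num)
    rw [← e1, ← e2, show g * s 5 * g⁻¹ * (g * w 5 * g⁻¹) = g * (s 5 * w 5) * g⁻¹ by group, (hkz _ hz g).symm.eq,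
      mul_inv_cancel_right]
  obtain ⟨z₅, hz₅⟩ : ∃ z, z = s 5 * w 5 := ⟨_, rfl⟩
  have hz₅σ : σ z₅ = 1 := by
    rw [hz₅, map_mul, hsσ 5 (by norm_num), hw.map 5 (by norm_num)]; exact q.pt_sq (by norm_num)
  have hz₅sq : z₅ * z₅ = 1 := by
    rcases hker z₅ hz₅σ with h | h | h | h <;> rw [h]
    · exact one_mul 1
    · exact Subtype.ext hπ.sq
    · exact Subtype.ext (sq_lift hπ hD hprim ht hcent (sq_eq_one hD.1 h0))
    · rw [(hdc tK).symm.mul_mul_mul_comm, show dK * dK = 1 from Subtype.ext hπ.sq,
        show tK * tK = 1 from Subtype.ext (sq_lift hπ hD hprim ht hcent (sq_eq_one hD.1 h0)), one_mul]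
  have hsw : ∀ l : List ℕ, (∀ p ∈ l, p < 21) → (l.map s).prod = z₅ ^ l.length * phi w l := by
    intro l hl
    induction l with
    | nil => simp [phi]
    | cons p l ih =>
      have hp := hl p List.mem_cons_self
      have hsp : s p = z₅ * w p := by
        rw [hz₅, ← hk p hp, mul_assoc, hw.sq p hp, mul_one]
      rw [List.map_cons, List.prod_cons, ih fun r hr => hl r (List.mem_cons_of_mem _ hr), hsp, phi_cons,
        List.length_cons, pow_succ', mul_assoc z₅ (w p), ← mul_assoc (w p),
        ((hkz _ hz₅σ (w p)).symm.pow_right l.length).eq]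
      simp only [mul_assoc]
  have hov : ∀ h < 3, (∀ p ∈ ovals.getD h [], p < 21) ∧ (ovals.getD h []).length = 6 ∧
      (ovals.getD h []).Nodup := by decide
  -- some oval lifts to `d`
  obtain ⟨h, hh, hphi⟩ : ∃ h < 3, phi w (ovals.getD h []) = dK := by
    obtain ⟨z0, hz0⟩ : ∃ z, z = phi w (ovals.getD 0 []) := ⟨_, rfl⟩
    obtain ⟨z1, hz1⟩ : ∃ z, z = phi w (ovals.getD 1 []) := ⟨_, rfl⟩
    have hσz : ∀ h < 3, σ (phi w (ovals.getD h [])) = 1 := fun h hh => by
      rw [hw.map_phi hc hs (oval_facts h hh).1, q.same_eq (oval_facts h hh).2.1, q.pel_nil]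
    have hz2 : phi w (ovals.getD 2 []) = z0 * z1 := by
      rw [← hw.phi_par hc hs third_fact.1]
      simp only [thirdOval, List.flatMap_cons, List.flatMap_nil, List.append_nil, phi_append]
      simp only [code, show (2 : ℕ) < 21 by norm_num, show (3 : ℕ) < 21 by norm_num, show (4 : ℕ) < 21 by norm_num,
        show (5 : ℕ) < 21 by norm_num, if_true, show ¬ (21 : ℕ) < 21 by norm_num, show ¬ (22 : ℕ) < 21 by norm_num,
        if_false, hw.line _ (show (2 : ℕ) < 21 by norm_num), hw.line _ (show (3 : ℕ) < 21 by norm_num),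
        hw.line _ (show (4 : ℕ) < 21 by norm_num), hw.line _ (show (5 : ℕ) < 21 by norm_num), one_mul, hz0, hz1]
    have hmem : dK ∈ Subgroup.closure ({z0, z1} : Set K) := by
      rw [hz0, hz1]
      exact hw.two_part hc hs hst hσd (n := 1) (by rw [pow_one, pow_two]; exact Subtype.ext hπ.sq)
    have hsq : ∀ z, σ z = 1 → z * z = 1 := by
      intro z hz
      rcases hker z hz with h | h | h | h <;> rw [h]
      · exact one_mul 1
      · exact Subtype.ext hπ.sq
      · exact Subtype.ext (sq_lift hπ hD hprim ht hcent (sq_eq_one hD.1 h0))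
      · rw [(hdc tK).symm.mul_mul_mul_comm, show dK * dK = 1 from Subtype.ext hπ.sq,
          show tK * tK = 1 from Subtype.ext (sq_lift hπ hD hprim ht hcent (sq_eq_one hD.1 h0)), one_mul]
    have s0 : z0 * z0 = 1 := hsq _ (hz0 ▸ hσz 0 (by norm_num))
    have s1 : z1 * z1 = 1 := hsq _ (hz1 ▸ hσz 1 (by norm_num))
    have c01 : Commute z0 z1 := hkz _ (hz0 ▸ hσz 0 (by norm_num)) _
    have hcases : ∀ x ∈ Subgroup.closure ({z0, z1} : Set K), x = 1 ∨ x = z0 ∨ x = z1 ∨ x = z0 * z1 := by
      intro x hx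
      induction hx using Subgroup.closure_induction with
      | mem y hy => rcases hy with rfl | rfl <;> simp
      | one => simp
      | mul a b _ _ ha hb =>
        have l0 : ∀ y, z0 * (z0 * y) = y := fun y => by rw [← mul_assoc, s0, one_mul]
        have l1 : ∀ y, z1 * (z1 * y) = y := fun y => by rw [← mul_assoc, s1, one_mul]
        have lc : z1 * z0 = z0 * z1 := c01.eq.symm
        have lc' : ∀ y, z1 * (z0 * y) = z0 * (z1 * y) := fun y => by rw [← mul_assoc, lc, mul_assoc]
        rcases ha with ha | ha | ha | ha <;> rcases hb with hb | hb | hb | hb <;> rw [ha, hb] <;>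
          simp [mul_assoc, s0, s1, l0, l1, lc, lc']
      | inv a _ ha =>
        rcases ha with ha | ha | ha | ha <;> rw [ha] <;>
          simp [inv_eq_of_mul_eq_one_left s0, inv_eq_of_mul_eq_one_left s1, c01.eq]
    rcases hcases dK hmem with h | h | h | h
    · exact absurd (congrArg Subtype.val h) hπ.ne
    · exact ⟨0, by norm_num, (h.trans hz0).symm⟩
    · exact ⟨1, by norm_num, (h.trans hz1).symm⟩
    · exact ⟨2, by norm_num, hz2.trans h.symm⟩
  obtain ⟨hlt, hlen, hnd⟩ := hov h hh
  refine ⟨(ovals.getD h []).map t, by rw [List.length_map, hlen], ?_, ?_, ?_, ?_, ?_⟩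
  · intro u hu
    obtain ⟨p, hp, rfl⟩ := List.mem_map.1 hu
    exact ⟨(htt p (hlt p hp)).1, (htt p (hlt p hp)).2 ▸ (P.mem p (hlt p hp)).1⟩
  · rw [List.map_map]
    refine hnd.map_on fun p hp r hr he => P.inj p (hlt p hp) r (hlt r hr) ?_
    rw [← (htt p (hlt p hp)).2, ← (htt r (hlt r hr)).2]
    exact he
  · intro u hu v hv
    obtain ⟨p, hp, rfl⟩ := List.mem_map.1 hu
    obtain ⟨r, hr, rfl⟩ := List.mem_map.1 hv
    rw [(htt p (hlt p hp)).2, (htt r (hlt r hr)).2]
    exact P.comm p (hlt p hp) r (hlt r hr)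
  · have hprod : ((ovals.getD h []).map t).prod = d := by
      have e1 : ((ovals.getD h []).map t).prod = (((ovals.getD h []).map s).prod : K) := by
        rw [← Subgroup.coe_subtype, map_list_prod, List.map_map]
        exact congrArg List.prod (List.map_congr_left fun p hp => (hsv p (hlt p hp)).symm)
      rw [e1, hsw _ hlt, hlen, hphi, show z₅ ^ 6 = 1 by
        rw [show (6 : ℕ) = 2 * 3 by norm_num, pow_mul, pow_two, hz₅sq, one_pow], one_mul]
    rw [← map_list_prod, hprod, hπ.map_d]
  · have e1 : ((ovals.getD h []).map t).prod = (((ovals.getD h []).map s).prod : K) := by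
      rw [← Subgroup.coe_subtype, map_list_prod, List.map_map]
      exact congrArg List.prod (List.map_congr_left fun p hp => (hsv p (hlt p hp)).symm)
    rw [e1, hsw _ hlt, hlen, hphi, show z₅ ^ 6 = 1 by
      rw [show (6 : ℕ) = 2 * 3 by norm_num, pow_mul, pow_two, hz₅sq, one_pow], one_mul]

end CfsgLib.Fischer.DoubleM22
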