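import Mathlib

/-!
Products of commuting values over finite subsets.
-/

set_option autoImplicit false

namespace CfsgLib.Fischer.DoubleM22

variable {α M : Type*} [DecidableEq α] [Monoid M]

/-- The product of the values on a finite set (in the order of its list). -/
noncomputable def setProd (f : α → M) (s : Finset α) : M := (s.toList.map f).prod

theorem setProd_eq_of_perm {f : α → M} {s : Finset α} {l : List α} (hf : ∀ a ∈ s, ∀ b ∈ s, Commute (f a) (f b))
    (hp : s.toList.Perm l) : setProd f s = (l.map f).prod := by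
  refine (hp.map f).prod_eq' (List.pairwise_of_forall_mem_list fun x hx y hy => ?_)
  obtain ⟨a, ha, rfl⟩ := List.mem_map.1 hx
  obtain ⟨b, hb, rfl⟩ := List.mem_map.1 hy
  exact hf a (Finset.mem_toList.1 ha) b (Finset.mem_toList.1 hb)

theorem setProd_toFinset {f : α → M} {l : List α} (hl : l.Nodup)
    (hf : ∀ a ∈ l, ∀ b ∈ l, Commute (f a) (f b)) : setProd f l.toFinset = (l.map f).prod :=
  setProd_eq_of_perm (fun a ha b hb => hf a (List.mem_toFinset.1 ha) b (List.mem_toFinset.1 hb))
    ((List.perm_ext_iff_of_nodup (Finset.nodup_toList _) hl).2 fun a => by simp)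

theorem setProd_empty (f : α → M) : setProd f ∅ = 1 := by simp [setProd]

theorem setProd_singleton (f : α → M) (a : α) : setProd f {a} = f a := by simp [setProd]

theorem setProd_pair {f : α → M} {a b : α} (h : a ≠ b) (hc : Commute (f a) (f b)) :
    setProd f {a, b} = f a * f b := by
  have h' := setProd_toFinset (f := f) (l := [a, b]) (by simp [h]) (fun x hx y hy => by
    simp only [List.mem_cons, List.not_mem_nil, or_false] at hx hy
    rcases hx with rfl | rfl <;> rcases hy with rfl | rfl
    exacts [Commute.refl _, hc, hc.symm, Commute.refl _])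
  simpa using h'

theorem setProd_union {f : α → M} {B s t : Finset α} (hf : ∀ a ∈ B, ∀ b ∈ B, Commute (f a) (f b))
    (hs : s ⊆ B) (ht : t ⊆ B) (hd : Disjoint s t) : setProd f (s ∪ t) = setProd f s * setProd f t := by
  rw [setProd_eq_of_perm (l := s.toList ++ t.toList), List.map_append, List.prod_append]
  · rfl
  · intro a ha b hb
    exact hf a (Finset.union_subset hs ht ha) b (Finset.union_subset hs ht hb)
  · refine (List.perm_ext_iff_of_nodup (Finset.nodup_toList _) (List.nodup_append.2
      ⟨Finset.nodup_toList _, Finset.nodup_toList _, fun a ha b hb h => ?_⟩)).2 fun a => by simp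
    subst h
    exact Finset.disjoint_left.1 hd (Finset.mem_toList.1 ha) (Finset.mem_toList.1 hb)

theorem setProd_commute {f : α → M} {B s t : Finset α} (hf : ∀ a ∈ B, ∀ b ∈ B, Commute (f a) (f b))
    (hs : s ⊆ B) (ht : t ⊆ B) : Commute (setProd f s) (setProd f t) := by
  refine Commute.list_prod_right _ _ fun y hy => (Commute.list_prod_right _ _ fun x hx => ?_).symm
  obtain ⟨b, hb, rfl⟩ := List.mem_map.1 hy
  obtain ⟨a, ha, rfl⟩ := List.mem_map.1 hx
  exact hf b (ht (Finset.mem_toList.1 hb)) a (hs (Finset.mem_toList.1 ha))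

theorem setProd_sq {f : α → M} {B s : Finset α} (hf : ∀ a ∈ B, ∀ b ∈ B, Commute (f a) (f b))
    (h2 : ∀ a ∈ B, f a * f a = 1) (hs : s ⊆ B) : setProd f s * setProd f s = 1 := by
  induction s using Finset.induction_on with
  | empty => rw [setProd_empty, one_mul]
  | @insert a s has ih =>
    have ha : a ∈ B := hs (Finset.mem_insert_self _ _)
    have hs' : s ⊆ B := fun x hx => hs (Finset.mem_insert_of_mem hx)
    rw [Finset.insert_eq, setProd_union hf (Finset.singleton_subset_iff.2 ha) hs' (by simpa using has),
      (setProd_commute hf hs' (Finset.singleton_subset_iff.2 ha)).mul_mul_mul_comm, setProd_singleton, h2 a ha,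
      ih hs', one_mul]

/-- The product over the symmetric difference. -/
theorem setProd_mul {f : α → M} {B s t : Finset α} (hf : ∀ a ∈ B, ∀ b ∈ B, Commute (f a) (f b))
    (h2 : ∀ a ∈ B, f a * f a = 1) (hs : s ⊆ B) (ht : t ⊆ B) :
    setProd f s * setProd f t = setProd f ((s \ t) ∪ (t \ s)) := by
  have h1 : setProd f s = setProd f (s \ t) * setProd f (s ∩ t) := by
    rw [← setProd_union hf (Finset.sdiff_subset.trans hs) (Finset.inter_subset_left.trans hs)
      (Finset.disjoint_sdiff_inter s t), Finset.sdiff_union_inter]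
  have h3 : setProd f t = setProd f (s ∩ t) * setProd f (t \ s) := by
    rw [← setProd_union hf (Finset.inter_subset_left.trans hs) (Finset.sdiff_subset.trans ht)
      (Finset.disjoint_left.2 fun a ha ha' => (Finset.mem_sdiff.1 ha').2 (Finset.mem_inter.1 ha).1)]
    congr 1
    ext a
    simp
    tauto
  rw [h1, h3, mul_assoc, ← mul_assoc (setProd f (s ∩ t)), setProd_sq hf h2 (Finset.inter_subset_left.trans hs),
    one_mul, setProd_union hf (Finset.sdiff_subset.trans hs) (Finset.sdiff_subset.trans ht)
      disjoint_sdiff_sdiff]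

theorem map_setProd {N F : Type*} [Monoid N] [FunLike F M N] [MonoidHomClass F M N] (φ : F) (f : α → M)
    (s : Finset α) : φ (setProd f s) = setProd (fun a => φ (f a)) s := by
  rw [setProd, map_list_prod, List.map_map]
  rfl

theorem setProd_congr {f g : α → M} {s : Finset α} (h : ∀ a ∈ s, f a = g a) : setProd f s = setProd g s :=
  congrArg List.prod (List.map_congr_left fun a ha => h a (Finset.mem_toList.1 ha))

theorem setProd_image {f : α → M} {σ : α → α} {s : Finset α} (hσ : Set.InjOn σ s)
    (hf : ∀ a ∈ s, ∀ b ∈ s, Commute (f (σ a)) (f (σ b))) :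
    setProd f (s.image σ) = setProd (f ∘ σ) s := by
  rw [setProd_eq_of_perm (l := s.toList.map σ), List.map_map]
  · rfl
  · intro a ha b hb
    obtain ⟨a', ha', rfl⟩ := Finset.mem_image.1 ha
    obtain ⟨b', hb', rfl⟩ := Finset.mem_image.1 hb
    exact hf a' ha' b' hb'
  · refine (List.perm_ext_iff_of_nodup (Finset.nodup_toList _) ((Finset.nodup_toList s).map_on fun a ha b hb h =>
      hσ (Finset.mem_toList.1 ha) (Finset.mem_toList.1 hb) h)).2 fun a => by simp

end CfsgLib.Fischer.DoubleM22
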