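import Cfsg.Agent.Lib.Fischer.DoubleM22.PairPerfect
import Cfsg.Agent.Lib.Fischer.TypeTwentyTwoClasses
import Cfsg.Agent.Lib.SchurMult.PSUSixTwo.Two

/-!
Perfect double covers of groups of type M(22): each member has one lift in a class of lifts, the
preimage of a member centralizer is perfect, and some six commuting members with trivial product
lift to six members of the class with non-trivial product.
-/

set_option autoImplicit false
set_option linter.unusedSectionVars false

namespace CfsgLib.Fischer.DoubleM22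

open CfsgLib.Fischer CfsgLib.InvChar.FischerProducts CfsgLib.InvChar.FischerHexad
open CfsgLib.InvChar.UnitaryTVTwo CfsgLib.Fischer.TypeTwentyTwo
open scoped commutatorElement

variable {C G : Type*} [Group C] [Finite C] [Group G] [Finite G]

/-- A perfect double cover. -/
structure IsDouble (π : C →* G) (d : C) : Prop where
  surj : Function.Surjective π
  ker : ∀ c, π c = 1 ↔ c = 1 ∨ c = d
  central : ∀ c, Commute d c
  sq : d * d = 1
  ne : d ≠ 1
  perfect : d ∈ _root_.commutator C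

variable {π : C →* G} {d : C}

theorem IsDouble.map_d (h : IsDouble π d) : π d = 1 := (h.ker d).2 (Or.inr rfl)

theorem IsDouble.lift_eq (h : IsDouble π d) {a b : C} (e : π a = π b) : a = b ∨ a = d * b := by
  rcases (h.ker (a * b⁻¹)).1 (by rw [map_mul, map_inv, e, mul_inv_cancel]) with e' | e'
  · exact Or.inl (mul_inv_eq_one.1 e')
  · exact Or.inr (mul_inv_eq_iff_eq_mul.1 e')

theorem IsDouble.natCard_comap (h : IsDouble π d) (H : Subgroup G) :
    Nat.card (H.comap π) = 2 * Nat.card H := by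
  have h1 := Subgroup.card_eq_card_quotient_mul_card_subgroup (π.subgroupComap H).ker
  have h2 : Function.Surjective (π.subgroupComap H) := fun x => by
    obtain ⟨c, hc⟩ := h.surj x
    exact ⟨⟨c, by show π c ∈ H; rw [hc]; exact x.2⟩, Subtype.ext hc⟩
  rw [Nat.card_congr (QuotientGroup.quotientKerEquivOfSurjective _ h2).toEquiv] at h1
  have h3 : Nat.card (π.subgroupComap H).ker = 2 := by
    rw [Nat.card_eq_two_iff]
    have hd : d ∈ H.comap π := by show π d ∈ H; rw [h.map_d]; exact one_mem _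
    refine ⟨1, ⟨⟨d, hd⟩, Subtype.ext h.map_d⟩, fun e => h.ne ?_, Set.eq_univ_of_forall fun k => ?_⟩
    · exact (congrArg (fun z : (π.subgroupComap H).ker => ((z : H.comap π) : C)) e).symm
    · rcases (h.ker ((k : H.comap π) : C)).1 (congrArg Subtype.val k.2) with e | e
      · exact Or.inl (Subtype.ext (Subtype.ext e))
      · exact Or.inr (Subtype.ext (Subtype.ext e))
  rw [h1, h3, mul_comm]

theorem IsDouble.index_comap (h : IsDouble π d) (H : Subgroup G) : (H.comap π).index = H.index :=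
  H.index_comap_of_surjective h.surj

variable {D : Set G} (hπ : IsDouble π d) (hD : Cfsg.IsThreeTranspositionGroup D)
  (hprim : Cfsg.IsPrimitiveUnderConj D) (ht : Cfsg.IsOfTypeM22 G D)
  (hcent : ∀ e ∈ D, Subgroup.centralizer ({e} : Set G) = Subgroup.closure (perp D e))

include hπ hD hprim ht hcent

theorem sq_lift {a : C} (ha : π a * π a = 1) : a * a = 1 :=
  sq_eq_one_lift hD hprim ht hcent π hπ.surj hπ.ne hπ.ker hπ.central hπ.sq ha

theorem commute_lift {a b : C} (ha : π a * π a = 1) (hb : π b * π b = 1) (hab : Commute (π a) (π b)) :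
    Commute a b := by
  have h2 := sq_lift hπ hD hprim ht hcent ha
  have h3 := sq_lift hπ hD hprim ht hcent hb
  have h4 := sq_lift hπ hD hprim ht hcent (a := a * b) (by
    rw [map_mul, hab.symm.mul_mul_mul_comm, ha, hb, one_mul])
  show a * b = b * a
  calc a * b = (a * b)⁻¹ := (inv_eq_of_mul_eq_one_left h4).symm
    _ = b * a := by rw [mul_inv_rev, inv_eq_of_mul_eq_one_left h2, inv_eq_of_mul_eq_one_left h3]

/-- Elements over the centralizer of a member centralize its lifts. -/
theorem commute_member {e : G} (he : e ∈ D) {t y : C} (ht' : π t = e)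
    (hy : π y ∈ Subgroup.closure (perp D e)) : Commute y t := by
  let H := Subgroup.closure (perp D e)
  have hz : ∀ g : C, π g ∈ H → ∃ z : C, (∀ c, Commute z c) ∧ g * t * g⁻¹ = z * t := by
    intro g hg
    rcases hπ.lift_eq (show π (g * t * g⁻¹) = π t by
      rw [map_mul, map_mul, map_inv, ht', (commute_d (H := H) rfl hg).symm.eq, mul_inv_cancel_right]) with h | h
    · exact ⟨1, fun c => Commute.one_left c, by rw [h, one_mul]⟩
    · exact ⟨d, hπ.central, h⟩
  have hder : ⁅H.comap π, H.comap π⁆ ≤ Subgroup.centralizer ({t} : Set C) := by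
    rw [Subgroup.commutator_le]
    intro g hg k hk
    obtain ⟨u, hu, hug⟩ := hz g hg
    obtain ⟨v, hv, hvk⟩ := hz k hk
    rw [Subgroup.mem_centralizer_singleton_iff]
    have hg' : g⁻¹ * t * g = u⁻¹ * t := by
      rw [eq_inv_mul_iff_mul_eq, ← mul_assoc, ← mul_assoc, (hu g⁻¹).eq, mul_assoc g⁻¹, ← hug]
      group
    have hk' : k⁻¹ * t * k = v⁻¹ * t := by
      rw [eq_inv_mul_iff_mul_eq, ← mul_assoc, ← mul_assoc, (hv k⁻¹).eq, mul_assoc k⁻¹, ← hvk]
      group
    have key : ⁅g, k⁆ * t * ⁅g, k⁆⁻¹ = t := by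
      rw [commutatorElement_def]
      calc g * k * g⁻¹ * k⁻¹ * t * (g * k * g⁻¹ * k⁻¹)⁻¹
          = g * (k * (g⁻¹ * (k⁻¹ * t * k) * g) * k⁻¹) * g⁻¹ := by group
        _ = g * (k * (g⁻¹ * (v⁻¹ * t) * g) * k⁻¹) * g⁻¹ := by rw [hk']
        _ = g * (k * (v⁻¹ * (g⁻¹ * t * g)) * k⁻¹) * g⁻¹ := by
          rw [show g⁻¹ * (v⁻¹ * t) * g = (g⁻¹ * v⁻¹) * t * g by group, ← ((hv g⁻¹).inv_left).eq]; group
        _ = g * (k * (v⁻¹ * (u⁻¹ * t)) * k⁻¹) * g⁻¹ := by rw [hg']
        _ = g * ((k * v⁻¹) * u⁻¹ * t * k⁻¹) * g⁻¹ := by group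
        _ = g * (v⁻¹ * ((k * u⁻¹) * t * k⁻¹)) * g⁻¹ := by rw [← ((hv k).inv_left).eq]; group
        _ = g * (v⁻¹ * (u⁻¹ * (k * t * k⁻¹))) * g⁻¹ := by rw [← ((hu k).inv_left).eq]; group
        _ = g * (v⁻¹ * (u⁻¹ * (v * t))) * g⁻¹ := by rw [hvk]
        _ = g * (v⁻¹ * (u⁻¹ * v) * t) * g⁻¹ := by group
        _ = g * (u⁻¹ * t) * g⁻¹ := by rw [((hu v).inv_left).eq, inv_mul_cancel_left]
        _ = (g * u⁻¹) * t * g⁻¹ := by group
        _ = u⁻¹ * (g * t * g⁻¹) := by rw [← ((hu g).inv_left).eq]; group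
        _ = t := by rw [hug, inv_mul_cancel_left]
    exact mul_inv_eq_iff_eq_mul.1 key
  have := isPerfect hD hprim ht he
  obtain ⟨c, hc, hce⟩ : π y ∈ ⁅H.comap π, H.comap π⁆.map π := by
    rw [Subgroup.map_commutator, Subgroup.map_comap_eq_self_of_surjective hπ.surj]
    have h1 : (⟨π y, hy⟩ : H) ∈ _root_.commutator H := by
      rw [Group.IsPerfect.commutator_eq_top]; exact Subgroup.mem_top _
    have h2 := Subgroup.mem_map_of_mem H.subtype h1
    rwa [commutator_def, Subgroup.map_commutator, ← MonoidHom.range_eq_map, Subgroup.range_subtype] at h2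
  have hct : Commute c t := Subgroup.mem_centralizer_singleton_iff.1 (hder hc)
  rcases hπ.lift_eq hce.symm with rfl | rfl
  · exact hct
  · exact (hπ.central t).mul_left hct

/-- Two conjugate lifts of the same member are equal. -/
theorem lift_unique {t t' : C} (htD : π t ∈ D) (hc : IsConj t t') (he : π t' = π t) : t' = t := by
  obtain ⟨g, rfl⟩ := isConj_iff.1 hc
  have hy : π g ∈ Subgroup.closure (perp D (π t)) := by
    rw [← hcent _ htD, Subgroup.mem_centralizer_singleton_iff]
    rw [map_mul, map_mul, map_inv] at he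
    exact mul_inv_eq_iff_eq_mul.1 he
  rw [(commute_member hπ hD hprim ht hcent htD rfl hy).eq, mul_inv_cancel_right]

theorem exists_lift {t0 : C} (h0 : π t0 ∈ D) {e : G} (he : e ∈ D) : ∃ t, IsConj t0 t ∧ π t = e := by
  obtain ⟨g, hg⟩ := hprim.1 _ h0 e he
  obtain ⟨c, rfl⟩ := hπ.surj g
  exact ⟨c * t0 * c⁻¹, isConj_iff.2 ⟨c, rfl⟩, by rw [map_mul, map_mul, map_inv, hg]⟩

/-- The preimage of the centralizer of a member has `d` in its derived group. -/
theorem mem_commutator_comap {e : G} (he : e ∈ D) :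
    d ∈ ⁅(Subgroup.closure (perp D e)).comap π, (Subgroup.closure (perp D e)).comap π⁆ := by
  obtain ⟨b, hb⟩ := perp_nonempty hD hprim ht he
  let W := (pairCent e b).comap π
  let K := (Subgroup.centralizer ({e * b} : Set G)).comap π
  let R := ⁅W, W⁆
  have hWH : W ≤ (Subgroup.closure (perp D e)).comap π := fun y hy =>
    centralizer_mem hD hprim ht he (mem_pairCent.1 hy).1
  refine Subgroup.commutator_mono hWH hWH ?_
  have hWK : W ≤ K := fun y hy => pairCent_le hD hprim ht hy
  have hidx : (Subgroup.centralizer ({e * b} : Set G)).index * (2 * (1024 * 25920)) =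
      2 ^ 17 * 3 ^ 9 * 5 ^ 2 * 7 * 11 * 13 := by
    rw [← natCard_group hD hprim ht, ← natCard_pairCent' hD hprim ht hcent he hb]
    have h := ((pairCent e b).subgroupOf (Subgroup.centralizer ({e * b} : Set G))).card_mul_index
    rw [index_pairCent hD hprim ht he hb, Nat.card_congr (Subgroup.subgroupOfEquivOfLe (pairCent_le hD hprim ht)).toEquiv] at h
    rw [mul_comm 2 _, h, mul_comm, Subgroup.card_mul_index]
  have hodd : (Subgroup.centralizer ({e * b} : Set G)).index = 2 * ((Subgroup.centralizer ({e * b} : Set G)).index / 2) + 1 := by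
    omega
  have h1 := CfsgLib.SchurMult.pow_index_mem_commutator K
    (Subgroup.mem_center_iff.2 fun c => (hπ.central c).symm.eq) hπ.perfect
  rw [show K.index = _ from hπ.index_comap _, hodd, pow_succ, pow_mul, pow_two, hπ.sq, one_pow, one_mul] at h1
  -- the preimage of the pair modulo its derived group is central
  have hW : ∀ y ∈ W, y ∈ R ∨ d * y ∈ R := by
    intro y hy
    obtain ⟨c, hc, hce⟩ : π y ∈ R.map π := by
      show π y ∈ ⁅W, W⁆.map π
      rw [Subgroup.map_commutator, Subgroup.map_comap_eq_self_of_surjective hπ.surj,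
        pairCent_perfect hD hprim ht hcent he hb]
      exact hy
    rcases hπ.lift_eq hce.symm with rfl | rfl
    · exact Or.inl hc
    · exact Or.inr (by rw [← mul_assoc, hπ.sq, one_mul]; exact hc)
  have hWconj : ∀ k ∈ K, ∀ y ∈ W, k * y * k⁻¹ ∈ W := by
    intro k hk y hy
    show π (k * y * k⁻¹) ∈ pairCent e b
    have hy' := mem_pairCent.1 (show π y ∈ pairCent e b from hy)
    rw [map_mul, map_mul, map_inv]
    rcases mem_centralizer_cases hD hprim ht he hb hk with h | ⟨h2, h3⟩
    · exact mul_mem (mul_mem h hy) (inv_mem h)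
    · refine mem_pairCent.2 ⟨?_, ?_⟩
      · have := hy'.2.map (MulAut.conj (π k))
        simp only [MulAut.conj_apply, h3] at this
        exact this
      · have := hy'.1.map (MulAut.conj (π k))
        simp only [MulAut.conj_apply, h2] at this
        exact this
  have hRn : ∀ k ∈ K, ∀ r ∈ R, k * r * k⁻¹ ∈ R := by
    intro k hk r hr
    have hle : R.map (MulAut.conj k).toMonoidHom ≤ R := by
      show ⁅W, W⁆.map _ ≤ ⁅W, W⁆
      rw [Subgroup.map_commutator]
      have : W.map (MulAut.conj k).toMonoidHom ≤ W := by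
        rintro _ ⟨y, hy, rfl⟩
        exact hWconj k hk y hy
      exact Subgroup.commutator_mono this this
    exact hle ⟨r, hr, rfl⟩
  obtain ⟨g0, hg0a, hg0b⟩ := exists_pair_swap hD hprim ht he hb
  obtain ⟨y0, hy0⟩ := hπ.surj g0
  have hy0K : y0 ∈ K := by
    show π y0 ∈ Subgroup.centralizer ({e * b} : Set G)
    rw [hy0]; exact swap_mem hD hprim ht hb hg0a hg0b
  -- modulo the derived group everything in K is a central multiple of a power of the swap
  have hKdec : ∀ k ∈ K, ∃ (i j : ℕ), ∃ r ∈ R, k = d ^ i * r * y0 ^ j := by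
    intro k hk
    have hWdec : ∀ y ∈ W, ∃ i : ℕ, ∃ r ∈ R, y = d ^ i * r := fun y hy => by
      rcases hW y hy with h | h
      · exact ⟨0, y, h, by rw [pow_zero, one_mul]⟩
      · exact ⟨1, _, h, by rw [pow_one, ← mul_assoc, hπ.sq, one_mul]⟩
    rcases mem_centralizer_cases hD hprim ht he hb (show π k ∈ _ from hk) with h | ⟨h2, h3⟩
    · obtain ⟨i, r, hr, e'⟩ := hWdec k h
      exact ⟨i, 0, r, hr, by rw [pow_zero, mul_one]; exact e'⟩
    · have hmem : k * y0⁻¹ ∈ W := by
        show π (k * y0⁻¹) ∈ pairCent e b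
        rw [map_mul, map_inv, hy0]
        refine mem_pairCent.2 ⟨commute_of_conj_eq ?_, commute_of_conj_eq ?_⟩
        · rw [show π k * g0⁻¹ * e * (π k * g0⁻¹)⁻¹ = π k * (g0⁻¹ * e * g0) * (π k)⁻¹ by group,
            show g0⁻¹ * e * g0 = b by rw [← hg0b]; group, h3]
        · rw [show π k * g0⁻¹ * b * (π k * g0⁻¹)⁻¹ = π k * (g0⁻¹ * b * g0) * (π k)⁻¹ by group,
            show g0⁻¹ * b * g0 = e by rw [← hg0a]; group, h2]
      obtain ⟨i, r, hr, e'⟩ := hWdec _ hmem
      exact ⟨i, 1, r, hr, by rw [pow_one, ← e', inv_mul_cancel_right]⟩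
  refine (?_ : ⁅K, K⁆ ≤ R) h1
  rw [Subgroup.commutator_le]
  intro u hu v hv
  let N := Subgroup.normalizer (R : Set C)
  have hKN : ∀ k ∈ K, k ∈ N := fun k hk => Subgroup.mem_normalizer_iff.2 fun x =>
    ⟨fun hx => hRn k hk x hx, fun hx => by
      have := hRn k⁻¹ (inv_mem hk) _ hx
      rwa [show k⁻¹ * (k * x * k⁻¹) * k⁻¹⁻¹ = x by group] at this⟩
  let qn := QuotientGroup.mk' (R.subgroupOf N)
  have hform : ∀ k (hk : k ∈ K), ∃ (z : N) (j : ℕ), (∀ n : N, Commute z n) ∧
      qn ⟨k, hKN k hk⟩ = qn z * qn ⟨y0, hKN _ hy0K⟩ ^ j := by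
    intro k hk
    obtain ⟨i, j, r, hr, e'⟩ := hKdec k hk
    refine ⟨⟨d ^ i, pow_mem (hKN d (show π d ∈ Subgroup.centralizer ({e * b} : Set G) by rw [hπ.map_d]; exact one_mem _)) i⟩, j,
      fun n => Subtype.ext ((hπ.central (n : C)).pow_left i).eq, ?_⟩
    have hr1 : qn ⟨r, Subgroup.le_normalizer hr⟩ = 1 := (QuotientGroup.eq_one_iff _).2 hr
    have : (⟨k, hKN k hk⟩ : N) =
        ⟨d ^ i, pow_mem (hKN d (show π d ∈ Subgroup.centralizer ({e * b} : Set G) by rw [hπ.map_d]; exact one_mem _)) i⟩ * ⟨r, Subgroup.le_normalizer hr⟩ *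
          (⟨y0, hKN _ hy0K⟩ : N) ^ j := Subtype.ext (by simpa using e')
    rw [this, map_mul, map_mul, map_pow, hr1, mul_one]
  obtain ⟨z, j, hz, ez⟩ := hform u hu
  obtain ⟨z', j', hz', ez'⟩ := hform v hv
  have hzq : ∀ (z : N), (∀ n : N, Commute z n) → ∀ x, Commute (qn z) x := fun z hz x => by
    obtain ⟨n, rfl⟩ := QuotientGroup.mk'_surjective _ x
    exact (hz n).map qn
  have : qn ⁅(⟨u, hKN u hu⟩ : N), ⟨v, hKN v hv⟩⁆ = 1 := by
    rw [map_commutatorElement, commutatorElement_eq_one_iff_mul_comm, ez, ez']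
    exact ((hzq z hz _).mul_left (((hzq z' hz' _).symm).mul_right ((Commute.refl _).pow_pow j j'))).eq
  have hmem := (QuotientGroup.eq_one_iff _).1 this
  exact hmem

end CfsgLib.Fischer.DoubleM22
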