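import Cfsg.Agent.Lib.Fischer.DoubleM22.Base
import Cfsg.Agent.Lib.Fischer.DoubleM22.Products

/-!
The group on a set of twenty-two commuting members: its elements are products of at most three of
them, the normalizer is transitive on each kind, and the order of the normalizer modulo the
centralizer has two-part `2^7` and is `147840 * 3^j` with `j ≤ 3`.
-/

set_option autoImplicit false
set_option linter.unusedSectionVars false

namespace CfsgLib.Fischer.DoubleM22

open CfsgLib.Fischer CfsgLib.InvChar.FischerProducts CfsgLib.InvChar.FischerHexad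
open CfsgLib.InvChar.UnitaryTVTwo CfsgLib.Fischer.TypeTwentyTwo CfsgLib.Fischer.ThompsonOrbit
open CfsgLib.Fischer.InvolutionLists

variable {G : Type*} [Group G] [Finite G] {D : Set G}
variable (hD : Cfsg.IsThreeTranspositionGroup D) (hprim : Cfsg.IsPrimitiveUnderConj D)
  (ht : Cfsg.IsOfTypeM22 G D) (hcent : ∀ e ∈ D, Subgroup.centralizer ({e} : Set G) = Subgroup.closure (perp D e))
  (Bs : Base D)

/-- The group generated by the base. -/
abbrev Base.J {D : Set G} (Bs : Base D) : Subgroup G := Subgroup.closure (Bs.B : Set G)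

include hD hprim ht hcent

theorem Base.isElementary : Cfsg.IsElementaryAbelian 2 Bs.J :=
  isElementaryAbelian_closure (fun x hx => sq_eq_one hD.1 (Bs.sub x hx)) fun x hx y hy => Bs.comm x hx y hy

theorem Base.isPGroup : IsPGroup 2 Bs.J :=
  fun x => ⟨1, Subtype.ext (by rw [pow_one]; exact (Base.isElementary hD hprim ht hcent Bs).2 x x.2)⟩

theorem Base.fusion {g : G} {S : Set G} (hS : S ⊆ Bs.J) (hgS : ∀ x ∈ S, g * x * g⁻¹ ∈ Bs.J) :
    ∃ n ∈ Subgroup.normalizer (Bs.J : Set G), ∀ x ∈ S, n * x * n⁻¹ = g * x * g⁻¹ :=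
  exists_normalizer_of_fusion (Base.isElementary hD hprim ht hcent Bs).1 (Base.isPGroup hD hprim ht hcent Bs)
    Bs.unique hS hgS

theorem Base.conj_mem {n : G} (hn : n ∈ Subgroup.normalizer (Bs.J : Set G)) {b : G} (hb : b ∈ Bs.B) :
    n * b * n⁻¹ ∈ Bs.B :=
  Bs.members _ (hD.2.1 n b (Bs.sub b hb)) ((Subgroup.mem_normalizer_iff.1 hn b).1 (Subgroup.subset_closure hb))

theorem Base.setProd_mem [DecidableEq G] {s : Finset G} (hs : s ⊆ Bs.B) : setProd id s ∈ Bs.J :=
  Subgroup.list_prod_mem _ fun x hx => Subgroup.subset_closure (hs (Finset.mem_toList.1 (by simpa using hx)))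

theorem Base.setProd_ne_one [DecidableEq G] {s : Finset G} (hs : s ⊆ Bs.B) (h0 : s.Nonempty) (h5 : s.card ≤ 5) :
    setProd id s ≠ 1 := by
  have h := noUnit_le_five hD hprim ht (k := s.card) (Finset.card_pos.2 h0) h5 s.toList (Finset.nodup_toList _)
    (Finset.length_toList _) (fun x hx => Bs.sub x (hs (Finset.mem_toList.1 hx)))
    (fun x hx y hy => Bs.comm x (hs (Finset.mem_toList.1 hx)) y (hs (Finset.mem_toList.1 hy)))
  simpa [setProd] using h

theorem Base.setProd_inj [DecidableEq G] {s t : Finset G} (hs : s ⊆ Bs.B) (ht' : t ⊆ Bs.B)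
    (h5 : s.card + t.card ≤ 5) (he : setProd id s = setProd id t) : s = t := by
  by_contra hne
  have h2 : ∀ a ∈ Bs.B, id a * id a = 1 := fun a ha => sq_eq_one hD.1 (Bs.sub a ha)
  have hf : ∀ a ∈ Bs.B, ∀ b ∈ Bs.B, Commute (id a) (id b) := Bs.comm
  refine Base.setProd_ne_one hD hprim ht hcent Bs (s := (s \ t) ∪ (t \ s))
    (Finset.union_subset (Finset.sdiff_subset.trans hs) (Finset.sdiff_subset.trans ht')) ?_ ?_ ?_
  · by_contra h0
    rw [Finset.not_nonempty_iff_eq_empty, Finset.union_eq_empty, Finset.sdiff_eq_empty_iff_subset,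
      Finset.sdiff_eq_empty_iff_subset] at h0
    exact hne (Finset.Subset.antisymm h0.1 h0.2)
  · exact (Finset.card_union_le _ _).trans ((Nat.add_le_add (Finset.card_le_card Finset.sdiff_subset)
      (Finset.card_le_card Finset.sdiff_subset)).trans h5)
  · rw [← setProd_mul hf h2 hs ht', ← he, setProd_sq hf h2 hs]

theorem Base.setProd_card [DecidableEq G] {s t : Finset G} (hs : s ⊆ Bs.B) (ht' : t ⊆ Bs.B) (h3 : s.card ≤ 3)
    (h3' : t.card ≤ 3) (he : setProd id s = setProd id t) : s.card = t.card := by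
  by_contra hne
  exact hne (congrArg Finset.card (Base.setProd_inj hD hprim ht hcent Bs hs ht' (by omega) he))

theorem Base.exists_setProd [DecidableEq G] {x : G} (hx : x ∈ Bs.J) :
    ∃ s ⊆ Bs.B, s.card ≤ 3 ∧ setProd id s = x := by
  obtain ⟨m, hm, l, hn, hlen, hl, hc, hp⟩ := exists_fact hD hprim ht (x := x)
    (by rw [← pow_two]; exact (Base.isElementary hD hprim ht hcent Bs).2 x hx)
  have hcard := Bs.card
  let l₀ := Bs.B.toList.take m
  have hl₀len : l₀.length = m := by simp [l₀]; omega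
  have hl₀B : ∀ a ∈ l₀, a ∈ Bs.B := fun a ha => Finset.mem_toList.1 (List.mem_of_mem_take ha)
  have hn₀ : l₀.Nodup := (Finset.nodup_toList _).sublist (List.take_sublist _ _)
  obtain ⟨g, hg⟩ := trans_le_three hD hprim ht hm l₀ l hn₀ hn hl₀len hlen (fun a ha => Bs.sub a (hl₀B a ha)) hl
    (fun a ha b hb => Bs.comm a (hl₀B a ha) b (hl₀B b hb)) hc
  have hx₀ : l₀.prod ∈ Bs.J := Subgroup.list_prod_mem _ fun a ha => Subgroup.subset_closure (hl₀B a ha)
  have hgx : g * l₀.prod * g⁻¹ = x := by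
    rw [← hp, ← hg, ← MulAut.conj_apply, map_list_prod]
  obtain ⟨n, hn', hnx⟩ := Base.fusion hD hprim ht hcent Bs (g := g) (S := {l₀.prod}) (by simpa using hx₀)
    (by simp only [Set.mem_singleton_iff, forall_eq]; rw [hgx]; exact hx)
  have hinj := (hn₀.map (MulAut.conj n).injective)
  refine ⟨(l₀.map (MulAut.conj n)).toFinset, fun a ha => ?_, ?_, ?_⟩
  · obtain ⟨b, hb, rfl⟩ := List.mem_map.1 (List.mem_toFinset.1 ha)
    exact Base.conj_mem hD hprim ht hcent Bs hn' (hl₀B b hb)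
  · rw [List.toFinset_card_of_nodup hinj, List.length_map, hl₀len]; exact hm
  · rw [setProd_toFinset hinj fun a ha b hb => ?_, List.map_id, ← map_list_prod, MulAut.conj_apply,
      hnx _ rfl, hgx]
    obtain ⟨a, ha', rfl⟩ := List.mem_map.1 ha
    obtain ⟨b, hb', rfl⟩ := List.mem_map.1 hb
    exact (Bs.comm a (hl₀B a ha') b (hl₀B b hb')).map _

/-- The elements that are products of exactly three members of the base. -/
theorem Base.ncard_three [DecidableEq G] :
    Set.ncard {x : G | ∃ s ⊆ Bs.B, s.card = 3 ∧ setProd id s = x} = 770 := by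
  classical
  let P : ℕ → Finset G := fun k => (Bs.B.powersetCard k).image (setProd id)
  have hsmall : ∀ k ≤ 2, (P k).card = Nat.choose 22 k := fun k hk => by
    rw [Finset.card_image_of_injOn, Finset.card_powersetCard, Bs.card]
    intro s hs t ht' he
    obtain ⟨hs1, hs2⟩ := Finset.mem_powersetCard.1 hs
    obtain ⟨ht1, ht2⟩ := Finset.mem_powersetCard.1 ht'
    exact Base.setProd_inj hD hprim ht hcent Bs hs1 ht1 (by omega) he
  have hdisj : ∀ i ≤ 3, ∀ j ≤ 3, i ≠ j → Disjoint (P i) (P j) := fun i hi j hj hij => by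
    rw [Finset.disjoint_left]
    intro x hx hx'
    obtain ⟨s, hs, rfl⟩ := Finset.mem_image.1 hx
    obtain ⟨t, ht', he⟩ := Finset.mem_image.1 hx'
    obtain ⟨hs1, hs2⟩ := Finset.mem_powersetCard.1 hs
    obtain ⟨ht1, ht2⟩ := Finset.mem_powersetCard.1 ht'
    exact hij (by rw [← hs2, ← ht2]; exact Base.setProd_card hD hprim ht hcent Bs hs1 ht1 (by omega) (by omega) he.symm)
  have hall : Set.Finite.toFinset (Set.toFinite (Bs.J : Set G)) = P 0 ∪ P 1 ∪ P 2 ∪ P 3 := by
    ext x
    simp only [Set.Finite.mem_toFinset, SetLike.mem_coe, Finset.mem_union]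
    constructor
    · intro hx
      obtain ⟨s, hs, h3, rfl⟩ := Base.exists_setProd hD hprim ht hcent Bs hx
      have hmem : setProd id s ∈ P s.card := Finset.mem_image.2 ⟨s, Finset.mem_powersetCard.2 ⟨hs, rfl⟩, rfl⟩
      obtain h | h | h | h : s.card = 0 ∨ s.card = 1 ∨ s.card = 2 ∨ s.card = 3 := by omega
      all_goals rw [h] at hmem; tauto
    · have : ∀ k, x ∈ P k → x ∈ Bs.J := fun k hk => by
        obtain ⟨s, hs, rfl⟩ := Finset.mem_image.1 hk
        exact Base.setProd_mem hD hprim ht hcent Bs (Finset.mem_powersetCard.1 hs).1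
      rintro (((h | h) | h) | h) <;> exact this _ h
  have hc := congrArg Finset.card hall
  rw [Finset.card_union_of_disjoint, Finset.card_union_of_disjoint, Finset.card_union_of_disjoint,
    hsmall 0 (by norm_num), hsmall 1 (by norm_num), hsmall 2 le_rfl, ← Set.ncard_eq_toFinset_card,
    ← Nat.card_coe_set_eq] at hc
  rotate_left
  · exact hdisj 0 (by norm_num) 1 (by norm_num) (by norm_num)
  · exact Finset.disjoint_union_left.2 ⟨hdisj 0 (by norm_num) 2 (by norm_num) (by norm_num),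
      hdisj 1 (by norm_num) 2 (by norm_num) (by norm_num)⟩
  · exact Finset.disjoint_union_left.2 ⟨Finset.disjoint_union_left.2
      ⟨hdisj 0 (by norm_num) 3 le_rfl (by norm_num), hdisj 1 (by norm_num) 3 le_rfl (by norm_num)⟩,
      hdisj 2 (by norm_num) 3 le_rfl (by norm_num)⟩
  have e : {x : G | ∃ s ⊆ Bs.B, s.card = 3 ∧ setProd id s = x} = (P 3 : Set G) := by
    ext x
    simp only [P, Finset.coe_image, Set.mem_image, Finset.mem_coe, Finset.mem_powersetCard, Set.mem_setOf_eq]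
    exact ⟨fun ⟨s, h1, h2, h3⟩ => ⟨s, ⟨h1, h2⟩, h3⟩, fun ⟨s, ⟨h1, h2⟩, h3⟩ => ⟨s, h1, h2, h3⟩⟩
  rw [e, Set.ncard_coe_finset]
  rw [show Nat.card (Bs.J : Set G) = 1024 from Bs.order] at hc
  norm_num [Nat.choose] at hc
  omega

omit hD hprim ht hcent in
theorem factorization_two {k r c : ℕ} (hr : r % 2 = 1) (hc : c % 2 = 1) (a : ℕ) :
    (2 ^ k * r * (2 ^ a * c)).factorization 2 = k + a := by
  have hr0 : r ≠ 0 := by omega
  have hc0 : c ≠ 0 := by omega
  rw [Nat.factorization_mul (mul_ne_zero (by positivity) hr0) (mul_ne_zero (by positivity) hc0),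
    Nat.factorization_mul (by positivity) hr0, Nat.factorization_mul (by positivity) hc0]
  simp [Nat.prime_two.factorization_self, Nat.factorization_eq_zero_of_not_dvd (show ¬ 2 ∣ r by omega),
    Nat.factorization_eq_zero_of_not_dvd (show ¬ 2 ∣ c by omega)]

/-- The order of the normalizer over that of the centralizer. -/
theorem Base.exists_index :
    ∃ j ≤ 3, Nat.card (Subgroup.normalizer (Bs.J : Set G)) =
      147840 * 3 ^ j * Nat.card (Subgroup.centralizer (Bs.J : Set G)) := by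
  classical
  set N := Subgroup.normalizer (Bs.J : Set G) with hN
  set CJ := Subgroup.centralizer (Bs.J : Set G) with hCJ
  let X := {p : G × G × G // p.1 ∈ Bs.B ∧ p.2.1 ∈ Bs.B ∧ p.2.2 ∈ Bs.B ∧
    p.1 ≠ p.2.1 ∧ p.1 ≠ p.2.2 ∧ p.2.1 ≠ p.2.2}
  have hmv : ∀ (n : N) (p : X), ((n : G) * p.1.1 * (n : G)⁻¹, (n : G) * p.1.2.1 * (n : G)⁻¹,
      (n : G) * p.1.2.2 * (n : G)⁻¹) ∈ {p : G × G × G | p.1 ∈ Bs.B ∧ p.2.1 ∈ Bs.B ∧ p.2.2 ∈ Bs.B ∧
        p.1 ≠ p.2.1 ∧ p.1 ≠ p.2.2 ∧ p.2.1 ≠ p.2.2} := fun n p =>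
    ⟨Base.conj_mem hD hprim ht hcent Bs n.2 p.2.1, Base.conj_mem hD hprim ht hcent Bs n.2 p.2.2.1,
      Base.conj_mem hD hprim ht hcent Bs n.2 p.2.2.2.1,
      fun h => p.2.2.2.2.1 (by simpa using h), fun h => p.2.2.2.2.2.1 (by simpa using h),
      fun h => p.2.2.2.2.2.2 (by simpa using h)⟩
  let act : MulAction N X :=
    { smul := fun n p => ⟨_, hmv n p⟩
      one_smul := fun p => Subtype.ext (by
        show (((1 : N) : G) * p.1.1 * ((1 : N) : G)⁻¹, _, _) = p.1
        simp)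
      mul_smul := fun n m p => Subtype.ext (by
        show (((n * m : N) : G) * p.1.1 * ((n * m : N) : G)⁻¹, ((n * m : N) : G) * p.1.2.1 * ((n * m : N) : G)⁻¹,
          ((n * m : N) : G) * p.1.2.2 * ((n * m : N) : G)⁻¹) =
          ((n : G) * ((m : G) * p.1.1 * (m : G)⁻¹) * (n : G)⁻¹, (n : G) * ((m : G) * p.1.2.1 * (m : G)⁻¹) * (n : G)⁻¹,
          (n : G) * ((m : G) * p.1.2.2 * (m : G)⁻¹) * (n : G)⁻¹)
        simp [mul_assoc]) }
  letI := act
  obtain ⟨a, b, c, ha, hb, hc, hab, hac, hbc⟩ : ∃ a b c, a ∈ Bs.B ∧ b ∈ Bs.B ∧ c ∈ Bs.B ∧ a ≠ b ∧ a ≠ c ∧ b ≠ c :=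
    Finset.two_lt_card_iff.1 (by rw [Bs.card]; norm_num)
  let p₀ : X := ⟨(a, b, c), ha, hb, hc, hab, hac, hbc⟩
  have htrans : MulAction.IsPretransitive N X := ⟨fun p p' => by
    obtain ⟨⟨x, y, z⟩, hx, hy, hz, h1, h2, h3⟩ := p
    obtain ⟨⟨x', y', z'⟩, hx', hy', hz', h1', h2', h3'⟩ := p'
    have hcm : ∀ {u v w : G}, u ∈ Bs.B → v ∈ Bs.B → w ∈ Bs.B → ∀ r ∈ [u, v, w], r ∈ Bs.B := fun hu hv hw r hr => by
      simp only [List.mem_cons, List.not_mem_nil, or_false] at hr
      rcases hr with rfl | rfl | rfl <;> assumption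
    obtain ⟨g, hg⟩ := trans_le_three hD hprim ht (le_refl 3) [x, y, z] [x', y', z'] (by simp [h1, h2, h3])
      (by simp [h1', h2', h3']) rfl rfl (fun r hr => Bs.sub r (hcm hx hy hz r hr))
      (fun r hr => Bs.sub r (hcm hx' hy' hz' r hr))
      (fun r hr s hs => Bs.comm r (hcm hx hy hz r hr) s (hcm hx hy hz s hs))
      (fun r hr s hs => Bs.comm r (hcm hx' hy' hz' r hr) s (hcm hx' hy' hz' s hs))
    simp only [List.map_cons, List.map_nil, List.cons.injEq, and_true, MulAut.conj_apply] at hg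
    obtain ⟨n, hn, hnS⟩ := Base.fusion hD hprim ht hcent Bs (g := g) (S := {x, y, z})
      (by rintro r (rfl | rfl | rfl) <;> exact Subgroup.subset_closure (by assumption))
      (by rintro r (rfl | rfl | rfl)
          · rw [hg.1]; exact Subgroup.subset_closure hx'
          · rw [hg.2.1]; exact Subgroup.subset_closure hy'
          · rw [hg.2.2]; exact Subgroup.subset_closure hz')
    refine ⟨⟨n, hn⟩, Subtype.ext ?_⟩
    show (n * x * n⁻¹, n * y * n⁻¹, n * z * n⁻¹) = (x', y', z')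
    rw [hnS x (by simp), hnS y (by simp), hnS z (by simp), hg.1, hg.2.1, hg.2.2]⟩
  have hX : Nat.card X = 9240 := by
    have e : Nat.card X = Nat.card (Fin 3 ↪ Bs.B) := Nat.card_congr
      { toFun := fun p => ⟨![⟨p.1.1, p.2.1⟩, ⟨p.1.2.1, p.2.2.1⟩, ⟨p.1.2.2, p.2.2.2.1⟩], by
          intro i j h
          have h' := congrArg Subtype.val h
          obtain ⟨-, -, -, n1, n2, n3⟩ := p.2
          fin_cases i <;> fin_cases j <;> first
            | rfl
            | exact absurd h' n1 | exact absurd h' n2 | exact absurd h' n3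
            | exact absurd h'.symm n1 | exact absurd h'.symm n2 | exact absurd h'.symm n3⟩
        invFun := fun f => ⟨((f 0).1, (f 1).1, (f 2).1), (f 0).2, (f 1).2, (f 2).2,
          fun h => absurd (f.injective (Subtype.ext h)) (by decide),
          fun h => absurd (f.injective (Subtype.ext h)) (by decide),
          fun h => absurd (f.injective (Subtype.ext h)) (by decide)⟩
        left_inv := fun p => rfl
        right_inv := fun f => by ext i; fin_cases i <;> rfl }
    rw [e, Nat.card_eq_fintype_card, Fintype.card_embedding_eq, Fintype.card_fin, Fintype.card_coe, Bs.card]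
    rfl
  have horb := MulAction.index_stabilizer_of_transitive (G := N) (X := X) p₀
  have hcards := (MulAction.stabilizer N p₀).card_mul_index
  rw [horb, hX] at hcards
  let S : Subgroup G := (MulAction.stabilizer N p₀).map N.subtype
  have hScard : Nat.card S = Nat.card (MulAction.stabilizer N p₀) :=
    Subgroup.card_map_of_injective N.subtype_injective
  have hSabc : S ≤ Subgroup.centralizer ({a * b * c} : Set G) := by
    rintro _ ⟨n, hn, rfl⟩
    have h := congrArg Subtype.val hn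
    change ((n : G) * a * (n : G)⁻¹, (n : G) * b * (n : G)⁻¹, (n : G) * c * (n : G)⁻¹) = (a, b, c) at h
    simp only [Prod.mk.injEq] at h
    refine Subgroup.mem_centralizer_singleton_iff.2 (mul_inv_eq_iff_eq_mul.1 ?_)
    show (n : G) * (a * b * c) * (n : G)⁻¹ = a * b * c
    conv_rhs => rw [← h.1, ← h.2.1, ← h.2.2]
    group
  have hCN : CJ ≤ N := Subgroup.centralizer_le_normalizer _
  have hCS : CJ ≤ S := by
    intro y hy
    refine ⟨⟨y, hCN hy⟩, Subtype.ext ?_, rfl⟩
    show (y * a * y⁻¹, y * b * y⁻¹, y * c * y⁻¹) = (a, b, c)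
    rw [← Subgroup.mem_centralizer_iff.1 hy a (Subgroup.subset_closure ha),
      ← Subgroup.mem_centralizer_iff.1 hy b (Subgroup.subset_closure hb),
      ← Subgroup.mem_centralizer_iff.1 hy c (Subgroup.subset_closure hc)]
    simp
  obtain ⟨r, hr⟩ := Subgroup.card_dvd_of_le hCS
  have hrdvd : r ∣ 2 ^ 16 * 3 ^ 3 := by
    have h3 := natCard_centralizer_three hD hprim ht (Bs.sub a ha) ⟨Bs.sub b hb, hab.symm, Bs.comm a ha b hb⟩
      ⟨⟨Bs.sub c hc, hac.symm, Bs.comm a ha c hc⟩, Bs.sub c hc, hbc.symm, Bs.comm b hb c hc⟩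
    rw [← h3]
    exact (Dvd.intro_left _ hr.symm).trans (Subgroup.card_dvd_of_le hSabc)
  obtain ⟨r1, r2, hr1, hr2, rfl⟩ := exists_dvd_and_dvd_of_dvd_mul hrdvd
  obtain ⟨i, -, rfl⟩ := (Nat.dvd_prime_pow Nat.prime_two).1 hr1
  obtain ⟨j, hj, rfl⟩ := (Nat.dvd_prime_pow Nat.prime_three).1 hr2
  refine ⟨j, hj, ?_⟩
  -- the two-part
  obtain ⟨T, hT⟩ := (Base.isPGroup hD hprim ht hcent Bs).exists_le_sylow
  have hTN : (T : Subgroup G) ≤ N := fun t htT => by
    refine mem_normalizer_of_map_eq ?_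
    have h := Bs.unique T t 1 (by
      rintro _ ⟨y, hy, rfl⟩
      exact mul_mem (mul_mem htT (hT hy)) (inv_mem htT)) (by rw [map_conj_one]; exact hT)
    rwa [map_conj_one] at h
  have hT17 : Nat.card (T : Subgroup G) = 2 ^ 17 := by
    rw [T.card_eq_multiplicity, natCard_group hD hprim ht,
      show (2 ^ 17 * 3 ^ 9 * 5 ^ 2 * 7 * 11 * 13 : ℕ) = 2 ^ 17 * (3 ^ 9 * 5 ^ 2 * 7 * 11 * 13) * (2 ^ 0 * 1) by norm_num,
      factorization_two (by norm_num) (by norm_num)]
  have hJC : Bs.J ≤ CJ := fun y hy => Subgroup.mem_centralizer_iff.2 fun z hz =>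
    congrArg Subtype.val ((Base.isElementary hD hprim ht hcent Bs).1.1.comm ⟨z, hz⟩ ⟨y, hy⟩)
  obtain ⟨Q⟩ : Nonempty (Sylow 2 CJ) := inferInstance
  have hQJ : Nat.card (Q : Subgroup CJ) ≤ 1024 := by
    rw [← Bs.order, ← Nat.card_congr ((Q : Subgroup CJ).equivMapOfInjective _ CJ.subtype_injective).toEquiv.symm]
    refine card_le_of_le ?_
    rintro _ ⟨y, hy, rfl⟩
    obtain ⟨k, hk⟩ := Q.isPGroup' ⟨y, hy⟩
    refine Bs.self y k (congrArg (fun z : (Q : Subgroup CJ) => ((z : CJ) : G)) hk) fun b hb => ?_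
    exact (Subgroup.mem_centralizer_iff.1 y.2 b (Subgroup.subset_closure hb)).symm
  have hJ10 : 2 ^ 10 ∣ Nat.card CJ := by
    rw [show (2 : ℕ) ^ 10 = 1024 by norm_num, ← Bs.order]; exact Subgroup.card_dvd_of_le hJC
  obtain ⟨c', hc'⟩ := hJ10
  have hcodd : c' % 2 = 1 := by
    by_contra hev
    have h11 : 2 ^ 11 ∣ Nat.card CJ := by
      obtain ⟨c'', rfl⟩ : 2 ∣ c' := by omega
      exact ⟨c'', by rw [hc']; ring⟩
    have := Nat.le_of_dvd Nat.card_pos (Q.pow_dvd_card_of_pow_dvd_card h11)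
    omega
  have hNcard : Nat.card N = 2 ^ (3 + i) * (1155 * 3 ^ j) * (2 ^ 10 * c') := by
    rw [← hcards, ← hScard, hr, hc', pow_add]; ring
  have hv : (Nat.card N).factorization 2 = 17 := by
    refine le_antisymm ?_ ?_
    · have h := (Nat.factorization_le_iff_dvd Nat.card_pos.ne' Nat.card_pos.ne').2 (Subgroup.card_subgroup_dvd_card N) 2
      refine h.trans (le_of_eq ?_)
      have := T.card_eq_multiplicity
      rw [hT17] at this
      exact (Nat.pow_right_injective le_rfl this).symm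
    · exact (Nat.Prime.pow_dvd_iff_le_factorization Nat.prime_two Nat.card_pos.ne').1
        (hT17 ▸ Subgroup.card_dvd_of_le hTN)
  have hodd3 : (1155 * 3 ^ j) % 2 = 1 := by rw [Nat.mul_mod, Nat.pow_mod]; simp
  rw [hNcard, factorization_two hodd3 hcodd] at hv
  obtain rfl : i = 4 := by omega
  rw [hNcard, hc']
  ring

end CfsgLib.Fischer.DoubleM22
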